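import Cfsg.Agent.Lib.C6.ElE
import Cfsg.Agent.Lib.PSL2.SmallIso

/-! Dickson's theorem for subgroups of `PGL₂(q)` with an element of order eleven, `q` arbitrary. -/

set_option autoImplicit false

namespace Cfsg.Lib.C6W

open scoped MatrixGroups
open Subgroup Matrix MulAction Cfsg.Geo Cfsg.Lib.C6 Cfsg.Lib.C6E Cfsg.Lib.PSL2
open Cfsg.Lib.Asch hiding tr

variable {F : Type*} [Field F] [Fintype F]

local notation "mk" => (ProjGenLinGroup.mk : GL (Fin 2) _ →* PGL(2, _))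

theorem lift_unip {y : GL (Fin 2) F} {z : P1 F} (k : mk y ∈ unip z) (y1 : mk y ≠ 1) :
    ∃ a b : Fin 2 → F, a ≠ 0 ∧ b ≠ 0 ∧ b ⬝ᵥ a = 0 ∧ (y ^ (Fintype.card F - 1)).1 = 1 + vecMulVec a b := by
  obtain ⟨c, rfl⟩ := exists_smul_inf z
  obtain ⟨C, rfl⟩ := exists_mk c
  obtain ⟨y, rfl⟩ : ∃ v, C * v * C⁻¹ = y := ⟨C⁻¹ * y * C, by group⟩
  rw [map_mul, map_mul, map_inv] at k y1
  obtain ⟨d, hd⟩ := mem_unip_inf.1 (conj_mem_unip_iff.1 k)
  obtain ⟨u, u0, e1, e2, e3, e4⟩ := (pgl_mk_eq_mk_iff _ _).1 hd.symm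
  have e : y.1 = u • !![1, d; 0, 1] := by
    ext i j; fin_cases i <;> fin_cases j <;> simp [e1, e2, e3, e4]
  have d0 : d ≠ 0 := by rintro rfl; exact y1 (by simp [hd])
  have e' : (y ^ (Fintype.card F - 1)).1 = 1 + vecMulVec ![1, 0] ![0, -d] := by
    rw [Units.val_pow_eq_pow_val, e, _root_.smul_pow, up_pow, FiniteField.pow_card_sub_one_eq_one u u0,
      Nat.cast_sub Fintype.card_pos]
    ext i j; fin_cases i <;> fin_cases j <;> simp
  refine ⟨C.1 *ᵥ ![1, 0], ![0, -d] ᵥ* (C⁻¹).1, Linear.GL_mulVec_ne_zero C (by simp), fun h => d0 ?_, by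
    rw [Linear.vecMul_inv_dot_mulVec]; simp, ?_⟩
  · have := congrArg (· ᵥ* C.1) h
    simpa [-Matrix.coe_units_inv] using this
  · rw [conj_pow, Units.val_mul, Units.val_mul, e', mul_add, add_mul, mul_one, Units.mul_inv, mul_vecMulVec,
      vecMulVec_mul]

theorem unip_psl {k : Subfield F} {c : PGL(2, F)} {N : Subgroup PGL(2, F)}
    (h : (pslSub k).map (subHom k.subtype c) ≤ N) : ∃ y ∈ N, y ≠ 1 ∧ ∃ z, y ∈ unip z :=
  have k2 : aff 1 1 ∈ unip (inf : P1 k) := aff_mem_unip_inf.2 rfl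
  ⟨_, h (mem_map_of_mem _ (unip_le_pslSub _ k2)), by
    simp [map_eq_one_iff _ (subHom_injective _ _), aff_eq_one_iff], _,
    conj_mem_unip_iff.2 ((pglMap_mem_unip_iff _).2 k2)⟩

/-- A non-trivial normal subgroup of a non-solvable `H` contains a unipotent element. -/
theorem unip_norm {H N : Subgroup PGL(2, F)} (hH : ¬ Group.IsSolvable H) {a : Fˣ} (ha : aff a 0 ∈ H)
    (ht : swp 1 ∈ H) (a11 : a ^ 11 = 1) (a1 : a ≠ 1) (le : N ≤ H) (nm : ∀ g ∈ H, ∀ n ∈ N, g * n * g⁻¹ ∈ N)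
    (n0 : N ≠ ⊥) : ∃ y ∈ N, y ≠ 1 ∧ ∃ z, y ∈ unip z := by
  have := Fact.mk (CharP.char_is_prime F (ringChar F))
  have k : ∀ m, aff a (0 : F) ^ m = 1 → m.Coprime 11 → False := fun m e c => a1
    ((pow_eq_one_iff_of_coprime c).1 ⟨by simpa [aff_zero_pow, aff_eq_one_iff] using e, a11⟩)
  have sm : ∀ {G : Type} [Group G], (∀ g : G, g ^ 60 = 1) → ¬ Nonempty (H ≃* G) := fun h ⟨e⟩ => k 60 (by
    simpa only [← map_pow, e.map_eq_one_iff, Subtype.ext_iff, coe_pow, coe_one] using h (e ⟨_, ha⟩)) (by norm_num)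
  rcases dickson_pgl (AlgebraicClosure F) (ringChar F) H with ⟨z, h⟩ | ⟨x, y, _, h, e⟩ |
    ⟨-, h | h | h⟩ | ⟨-, h⟩ | ⟨_, -, h⟩
  · exact absurd h (no_fix ha ht a1 z)
  · obtain ⟨f⟩ := h.dihedral_dih
    have := dih_sol ‹ℕ›
    exact absurd (Group.isSolvable_of_isSolvable_injective (f := f.toMonoidHom.comp (inclusion e))
      (f.injective.comp (inclusion_injective e))) hH
  · exact (sm ex_A4 h).elim
  · exact (sm ex_S4 h).elim
  · exact (sm ex_A5 h).elim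
  · exact (sm ex_A5 h).elim
  obtain ⟨f, c, _, -, h⟩ := isSubfieldType_iff.1 h
  have k1 : H ≤ (subHom f.subtype c).range := by
    rcases h with rfl | rfl
    exacts [map_le_range _ _, le_rfl]
  have k4 : 4 ≤ Nat.card f := by
    by_contra! k2
    have k3 := two_le_card_field f
    obtain ⟨b, hb⟩ := k1 ha
    refine k 24 ?_ (by norm_num)
    rw [← hb, ← map_pow, orderOf_dvd_iff_pow_eq_one.1 ((orderOf_dvd_natCard b).trans ?_), map_one]
    rw [card_PGL2]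
    interval_cases Nat.card f <;> norm_num
  obtain ⟨⟨n, hn⟩, n1⟩ := ne_bot_iff_exists_ne_one.1 n0
  refine unip_psl (k := f) (c := c) (map_le_iff_le_comap.2 ?_)
  rcases h with rfl | rfl
  · have := isSimpleGroup_psl k4
    obtain ⟨_, ⟨m, rfl⟩, rfl⟩ := le hn
    have k5 : (N.comap ((subHom f.subtype c).comp toP)).Normal := ⟨fun s hs g => by
      simpa using nm _ (mem_map_of_mem _ (toP_mem g)) _ hs⟩
    rintro _ ⟨g, rfl⟩
    exact (k5.eq_bot_or_eq_top.resolve_left fun e => n1 (Subtype.ext (by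
      simp [mem_bot.1 (e.le (show m ∈ N.comap _ from hn))]))).ge (mem_top g)
  · obtain ⟨m, rfl⟩ := le hn
    haveI : (N.comap (subHom f.subtype c)).Normal := ⟨fun s hs g => by simpa using nm _ ⟨g, rfl⟩ _ hs⟩
    exact pslSub_le_of_normal k4 fun e => n1 (Subtype.ext (by
      simp [mem_bot.1 (e.le (show m ∈ N.comap _ from hn))]))

theorem dick11 (h10 : (10 : F) ≠ 0) (h11 : (11 : F) ≠ 0) {η c : F} (h1 : η ^ 11 = 1)
    (h0 : η ≠ 1) (hc : 11 * c = η - 1) {Γ : Subgroup (GL (Fin 2) F)} {a b : GL (Fin 2) F} (ha : a ∈ Γ) (hb : b ∈ Γ)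
    (ea : a.1 = !![η, η - 1; 0, 1]) (eb : b.1 = !![1, 0; c, η]) :
    ∃ y ∈ Γ, ∃ a b : Fin 2 → F, a ≠ 0 ∧ b ≠ 0 ∧ b ⬝ᵥ a = 0 ∧ y.1 = 1 + vecMulVec a b := by
  have := Fact.mk (CharP.char_is_prime F (ringChar F))
  have e1 : η - 1 ≠ 0 := sub_ne_zero.2 h0
  have c0 : c ≠ 0 := by rintro rfl; exact e1 (by rw [← hc, mul_zero])
  have k : ∀ m : ℕ, η ^ m = 1 → m.Coprime 11 → False := fun m e c => h0 ((pow_eq_one_iff_of_coprime c).1 ⟨e, h1⟩)
  have h2 : η ^ 2 ≠ 1 := fun e => k 2 e (by norm_num)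
  have ap : ∀ n : ℕ, (a ^ n).1 = !![η ^ n, η ^ n - 1; 0, 1] := fun n => by
    induction n with
    | zero => simp [one_fin_two]
    | succ n ih => rw [pow_succ, Units.val_mul, ih, ea]; simp [pow_succ]; ring
  have a2 : mk a * mk a ≠ 1 := by rw [← map_mul, Ne, pgl_mk_eq_one_iff]; simp [ea]; grind
  have sm : ∀ {G : Type} [Group G], (∀ g : G, g ^ 60 = 1) → ¬ Nonempty (Γ.map mk ≃* G) := fun h ⟨e⟩ => k 60 (by
    have : mk a ^ 60 = 1 := by
      simpa only [← map_pow e, e.map_eq_one_iff, Subtype.ext_iff, coe_pow, coe_one] using h (e ⟨_, mem_map_of_mem _ ha⟩)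
    rw [← map_pow, pgl_mk_eq_one_iff, ap] at this
    simpa using this.2.2) (by norm_num)
  rcases dickson_pgl (AlgebraicClosure F) (ringChar F) (Γ.map mk) with ⟨z, h⟩ | ⟨x, y, _, h, e⟩ |
    ⟨-, h | h | h⟩ | ⟨-, h⟩ | ⟨_, -, h⟩
  · have h1 := mem_stabilizer_iff.1 (h (mem_map_of_mem _ ha))
    have h2 := mem_stabilizer_iff.1 (h (mem_map_of_mem _ hb))
    rcases eq_inf_or_eq_pt z with rfl | ⟨x, rfl⟩
    · simp [pgl_mk_smul, gl_smul_inf_eq_inf, eb, c0] at h2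
    · simp [pgl_mk_smul, gl_smul_pt_eq_pt, ea, eb] at h1 h2
      grind
  · have k : ∀ g ∈ Γ, mk g * mk g ≠ 1 → toK _ (mk g) ∈ fix2 x y := fun g hg g2 =>
      mem_fix2_of_mul_self_ne h.ne (e (mem_map_of_mem _ hg)) fun k => g2 (toK_injective (by rw [map_mul, k, map_one]))
    have := (commute_of_mem_fix2 h.ne (k a ha a2) (k b hb (by
      rw [← map_mul, Ne, pgl_mk_eq_one_iff]; simp [eb]; grind))).eq
    simp only [← map_mul] at this
    rw [toK_injective.eq_iff, pgl_mk_eq_mk_iff] at this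
    simp [ea, eb] at this
    obtain ⟨w, -, -, r1, r2, -⟩ := this
    obtain rfl : η = w := mul_left_cancel₀ c0 (r2.trans (mul_comm _ _))
    exact absurd (mul_left_cancel₀ e1 (by linear_combination -r1)) h2
  · exact (sm ex_A4 h).elim
  · exact (sm ex_S4 h).elim
  · exact (sm ex_A5 h).elim
  · exact (sm ex_A5 h).elim
  obtain ⟨f, c, _, -, h⟩ := isSubfieldType_iff.1 h
  obtain ⟨_, ⟨y, hy, rfl⟩, y1, z, k⟩ := unip_psl (k := f) (c := c) (N := Γ.map mk) (by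
    rcases h with h | h <;> rw [h]
    exact map_le_range _ _)
  exact ⟨_, pow_mem hy _, lift_unip k y1⟩

end Cfsg.Lib.C6W
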