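import Cfsg.Agent.Lib.C6.ElC
import Cfsg.Agent.Lib.Unitary.Std

/-! Overgroups of `11^{1+2}.SL₂(11)` in `GU₁₁(32)`: definitions and the groups `BB`, `EE`. -/

set_option autoImplicit false
set_option linter.unusedSectionVars false

namespace Cfsg.Lib.C6W

open scoped MatrixGroups
open Subgroup Matrix MulAction Cfsg.Geo Cfsg.Lib.C6 Cfsg.Lib.C6E
open Cfsg.Lib.Asch hiding tr

variable {F : Type*} [Field F] {σ : F →+* F} {ζ γ : F}

local notation "G11" => GL (Fin 11) F
local notation "M11" => Matrix (Fin 11) (Fin 11) F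

/-- An overgroup of the model consisting of unitary similarities, `q = 32`, without transvections. -/
structure OvE (σ : F →+* F) (ζ γ : F) (x y u w h t : G11) (M : Subgroup G11) : Prop
    extends Ov ζ γ x y u w h t M where
  bar : Unitary.IsBar 32 σ
  two : (2 : F) = 0
  sim : ∀ g ∈ M, ∃ c : F, (g.1.map σ)ᵀ * g.1 = c • 1
  nt : ∀ g ∈ M, ∀ v φ, φ ⬝ᵥ v = 0 → g.1 = 1 + vecMulVec v φ → v = 0 ∨ φ = 0

/-- `t - 1` -/
def ta (F : Type*) [Field F] : Matrix (Fin 11) (Fin 11) F := 1 + rn.permMatrix F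

/-- `1 + B` lies in `M`, where `B` maps `V / C_V(t)` to `[V, t]` -/
def BB (M : Subgroup G11) (B : M11) : Prop := (∃ Y, B = ta F * Y * ta F) ∧ ∃ g ∈ M, g.1 = 1 + B

/-- the block diagonal elements of `BB` (the value `c 0` plays no role) -/
def EE (M : Subgroup G11) (c : Fin 11 → F) : Prop :=
  (∀ i, c (rn i) = c i) ∧ ∃ g ∈ M, g.1 = 1 + diagonal c * ta F

/-- `ζ ^ n + ζ ^ (-n)` -/
def tau (ζ : F) (n : ℕ) : F := ζ ^ n + ζ ^ (10 * n)

/-- the diagonal of `w (diagonal c * ta) w⁻¹` -/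
def Om (ζ : F) (c : Fin 11 → F) (a : Fin 11) : F := ∑ b : Fin 5, c (o5 b) * tau ζ (4 * a.1 * (o5 b).1)

theorem ta_apply (i j : Fin 11) : ta F i j = (if i = j then 1 else 0) + if rn i = j then 1 else 0 := by
  simp [ta, one_apply, PEquiv.toMatrix_apply]

/-- `sum_o5`: the terms cancel in pairs -/
theorem sum_pair (c2 : (2 : F) = 0) {f : Fin 11 → F} (hf : ∀ i, f (rn i) = f i) : ∑ i, f i = f 0 := by
  rw [sum_o5, Finset.sum_eq_zero, add_zero]
  intro a _
  rw [hf]
  linear_combination f (o5 a) * c2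

theorem ta_mul (A : M11) (i j : Fin 11) : (ta F * A) i j = A i j + A (rn i) j := by
  rw [ta, add_mul, one_mul, PEquiv.toMatrix_toPEquiv_mul]
  rfl

theorem mul_ta (A : M11) (i j : Fin 11) : (A * ta F) i j = A i j + A i (rn j) := by
  rw [ta, mul_add, mul_one, PEquiv.mul_toMatrix_toPEquiv]
  rfl

theorem ta_sq (c2 : (2 : F) = 0) : ta F * ta F = 0 := by
  ext i j
  rw [ta_mul, ta_apply, ta_apply, rr, Matrix.zero_apply]
  linear_combination ((if i = j then 1 else 0) + if rn i = j then 1 else 0) * c2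

/-- `Y i j = B i j` for `1 ≤ i, j ≤ 5`, else `0` -/
theorem exists_ta {B : M11} (h1 : ∀ i j, B (rn i) j = B i j) (h2 : ∀ i j, B i (rn j) = B i j)
    (h3 : ∀ j, B 0 j = 0) (h4 : ∀ i, B i 0 = 0) : ∃ Y, B = ta F * Y * ta F := by
  have k : ∀ i : Fin 11, i = 0 ∨ (i ≠ 0 ∧ i.1 ≤ 5 ∧ rn i ≠ 0 ∧ ¬ (rn i).1 ≤ 5) ∨
      (i ≠ 0 ∧ ¬ i.1 ≤ 5 ∧ rn i ≠ 0 ∧ (rn i).1 ≤ 5) := by decide
  have r0 : rn 0 = 0 := rfl
  refine ⟨of fun i j => if i.1 ≤ 5 ∧ j.1 ≤ 5 then B i j else 0, ?_⟩
  ext i j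
  simp only [mul_ta, ta_mul, of_apply, h1, h2]
  rcases k i with rfl | ⟨-, a, -, b⟩ | ⟨-, a, -, b⟩
  · simp [h3]
  all_goals
    rcases k j with rfl | ⟨-, a', -, b'⟩ | ⟨-, a', -, b'⟩
    · simp [h4]
    all_goals simp [a, b, a', b']

variable {x y u w h t : GL (Fin 11) F} {M : Subgroup (GL (Fin 11) F)} {B B' : Matrix (Fin 11) (Fin 11) F}
  {c d : Fin 11 → F}

theorem BB.l (hB : BB M B) (i j : Fin 11) : B (rn i) j = B i j := by
  obtain ⟨⟨Y, rfl⟩, -⟩ := hB
  rw [Matrix.mul_assoc, ta_mul, ta_mul, rr, add_comm]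

theorem BB.r (hB : BB M B) (i j : Fin 11) : B i (rn j) = B i j := by
  obtain ⟨⟨Y, rfl⟩, -⟩ := hB
  rw [mul_ta, mul_ta, rr, add_comm]

namespace OvE

variable (D : OvE σ ζ γ x y u w h t M)
include D

theorem te : t.1 = 1 + ta F := by
  rw [D.ht, ta]
  ext i j
  simp only [Matrix.neg_apply, Matrix.add_apply]
  linear_combination (-(1 : M11) i j - rn.permMatrix F i j) * D.two

/-- `11 γ = 1 + 2 (…)` -/
theorem g1 : γ = 1 := by
  linear_combination D.ga + (ζ + ζ ^ 3 + ζ ^ 4 + ζ ^ 5 + ζ ^ 9 - 5 * γ) * D.two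

theorem sz : σ ζ = ζ ^ 10 := by
  rw [D.bar.eq]
  exact z_eq D.prim rfl

theorem cta {g : G11} (e : g * t = t * g) : g.1 * ta F = ta F * g.1 := by
  have := congrArg Units.val e
  rw [Units.val_mul, Units.val_mul, D.te, mul_add, add_mul, mul_one, one_mul] at this
  exact add_left_cancel this

theorem row (hB : BB M B) (j : Fin 11) : B 0 j = 0 := by
  obtain ⟨⟨Y, rfl⟩, -⟩ := hB
  rw [Matrix.mul_assoc, ta_mul, show rn 0 = 0 from rfl]
  linear_combination (Y * ta F) 0 j * D.two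

theorem col (hB : BB M B) (i : Fin 11) : B i 0 = 0 := by
  obtain ⟨⟨Y, rfl⟩, -⟩ := hB
  rw [mul_ta, show rn 0 = 0 from rfl]
  linear_combination (ta F * Y) i 0 * D.two

theorem bb_mul (hB : BB M B) (hB' : BB M B') : B * B' = 0 := by
  obtain ⟨⟨Y, rfl⟩, -⟩ := hB
  obtain ⟨⟨Y', rfl⟩, -⟩ := hB'
  calc _ = ta F * Y * (ta F * ta F) * Y' * ta F := by simp only [Matrix.mul_assoc]
    _ = 0 := by simp [ta_sq D.two]

theorem bb_add (hB : BB M B) (hB' : BB M B') : BB M (B + B') := by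
  have e := D.bb_mul hB hB'
  obtain ⟨⟨Y, e1⟩, g, hg, k⟩ := hB
  obtain ⟨⟨Y', e2⟩, g', hg', k'⟩ := hB'
  refine ⟨⟨Y + Y', by rw [e1, e2, mul_add, add_mul]⟩, g * g', M.mul_mem hg hg', ?_⟩
  rw [Units.val_mul, k, k', add_mul, one_mul, mul_add, mul_one, e, add_zero, add_assoc, add_comm B']

theorem bb_cj (hB : BB M B) {g : G11} (hg : g ∈ Ct M t) : BB M (cj g B) := by
  obtain ⟨⟨Y, e1⟩, a, ha, k⟩ := hB
  have e : cj g (ta F) = ta F := (cj_eq_self_iff _ _).2 (by
    first | exact D.cta (Ct.comm ⟨g, hg⟩) | exact (D.cta (Ct.comm ⟨g, hg⟩)).symm)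
  refine ⟨⟨cj g Y, by rw [e1, cj_mul_mat, cj_mul_mat, e]⟩, g * a * g⁻¹,
    M.mul_mem (M.mul_mem hg.1 ha) (M.inv_mem hg.1), ?_⟩
  rw [← cj_coe, k, cj_add, cj_one_mat]

/-- `exists_ta` -/
theorem ee_bb (hc : EE M c) : BB M (diagonal c * ta F) := by
  refine ⟨exists_ta (fun i j => ?_) (fun i j => ?_) (fun j => ?_) (fun i => ?_), hc.2⟩
  · rw [diagonal_mul, diagonal_mul, hc.1, ta_apply, ta_apply, rr, add_comm]
  · rw [mul_ta, mul_ta, rr, add_comm]
  · rw [diagonal_mul, ta_apply, show rn 0 = 0 from rfl]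
    linear_combination c 0 * (if 0 = j then 1 else 0) * D.two
  · rw [mul_ta, show rn 0 = 0 from rfl]
    linear_combination diagonal c i 0 * D.two

/-- `∑ m < 11, cj (u ^ m) B = diagonal B.diag * ta F` (`cj_diag`, `sum_z`, `11 = 1`) -/
theorem bb_ee (hB : BB M B) : EE M B.diag := by
  have z : ∀ s : Finset (Fin 11), BB M (∑ m ∈ s, cj (u ^ m.1) B) := by
    intro s
    induction s using Finset.induction_on with
    | empty => exact ⟨⟨0, by simp⟩, 1, M.one_mem, by simp⟩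
    | insert a s ha ih =>
      rw [Finset.sum_insert ha]
      exact D.bb_add (D.bb_cj hB (pow_mem D.cu _)) ih
  have e : ∑ m : Fin 11, cj (u ^ m.1) B = diagonal B.diag * ta F := by
    ext k l
    have e1 : ∀ m : Fin 11, cj (u ^ m.1) B k l = ζ ^ ((k.1 * k.1 + 10 * (l.1 * l.1)) * m.1) * B k l := by
      intro m
      rw [cj_diag (d := fun i => (ζ ^ (i.1 * i.1)) ^ m.1) (by
        rw [Units.val_pow_eq_pow_val, D.hu, diagonal_pow]; rfl)]
      congr 1
      rw [div_eq_iff (pow_ne_zero _ (pow_ne_zero _ (D.prim.ne_zero (by norm_num)))), ← pow_mul, ← pow_mul,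
        ← pow_add]
      refine z_eq D.prim ?_
      rw [show (k.1 * k.1 + 10 * (l.1 * l.1)) * m.1 + l.1 * l.1 * m.1 = k.1 * k.1 * m.1 + 11 * (l.1 * l.1 * m.1) by
        ring, Nat.add_mul_mod_self_left]
    rw [Matrix.sum_apply, Finset.sum_congr rfl fun m _ => e1 m, ← Finset.sum_mul, diagonal_mul, ta_apply,
      diag_apply]
    by_cases h1 : (k.1 * k.1 + 10 * (l.1 * l.1)) % 11 = 0
    · have e2 : ∑ m : Fin 11, ζ ^ ((k.1 * k.1 + 10 * (l.1 * l.1)) * m.1) = 1 := by
        rw [Finset.sum_congr rfl fun (m : Fin 11) _ => z_eq D.prim (m := (k.1 * k.1 + 10 * (l.1 * l.1)) * m.1)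
          (n := 0) (by rw [Nat.mul_mod, h1, zero_mul])]
        simp only [pow_zero, Finset.sum_const, Finset.card_univ, Fintype.card_fin, nsmul_eq_mul, mul_one,
          Nat.cast_ofNat]
        linear_combination 5 * D.two
      rw [e2, one_mul]
      have h2 : (k = 0 ∧ l = 0) ∨ (k = l ∧ rn k ≠ l) ∨ (k ≠ l ∧ rn k = l) := by
        clear * - h1; revert k l; decide
      rcases h2 with ⟨rfl, rfl⟩ | ⟨a, b⟩ | ⟨a, b⟩
      · rw [D.row hB, zero_mul]
      · rw [if_pos a, if_neg b, ← a, add_zero, mul_one]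
      · rw [if_neg a, if_pos b, ← b, zero_add, mul_one, hB.r]
    · have h2 : k ≠ l ∧ rn k ≠ l := by
        clear * - h1; revert k l; decide
      rw [sum_z D.prim h1, if_neg h2.1, if_neg h2.2]
      simp
  exact ⟨fun i => by rw [diag_apply, diag_apply, hB.l, hB.r], e ▸ (z Finset.univ).2⟩

theorem ee_one : EE M 1 := by
  exact ⟨fun _ => rfl, t, D.mt, by rw [D.te, show diagonal (1 : Fin 11 → F) = 1 from diagonal_one, one_mul]⟩

theorem ee_add (hc : EE M c) (hd : EE M d) : EE M (c + d) := by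
  refine ⟨fun i => by rw [Pi.add_apply, Pi.add_apply, hc.1, hd.1], ?_⟩
  have := (D.bb_add (D.ee_bb hc) (D.ee_bb hd)).2
  rwa [← add_mul, diagonal_add] at this

/-- conjugation by `h` (`D.ph`) -/
theorem ee_shift (hc : EE M c) : EE M (c ∘ r2) := by
  have k : ∀ i, r2 (rn i) = rn (r2 i) := by decide
  refine ⟨fun i => by rw [Function.comp_apply, Function.comp_apply, k, hc.1], ?_⟩
  have := (D.bb_cj (D.ee_bb hc) D.ch).2
  rw [D.ph] at this
  convert this using 5
  ext i j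
  rw [submatrix_apply, diagonal_mul, diagonal_mul, ta_apply, ta_apply, ← k]
  simp only [EmbeddingLike.apply_eq_iff_eq, Function.comp_apply]

/-- The `(0,0)` entry of `sim` gives the multiplier `1`; the `(i,i)` entry gives
`σ(1+c)(1+c) + σ(c) c = 1`. -/
theorem ee_fix (hc : EE M c) {i : Fin 11} (i0 : i ≠ 0) : c i ^ 32 = c i := by
  obtain ⟨h1, g, hg, e⟩ := hc
  obtain ⟨a, ha⟩ := D.sim g hg
  have e1 : ∀ k l, g.1 k l = (if k = l then 1 else 0) + c k * ((if k = l then 1 else 0) + if rn k = l then 1 else 0) := by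
    intro k l
    rw [e, Matrix.add_apply, diagonal_mul, ta_apply, one_apply]
  have e2 : ∀ l, ∑ k, σ (g.1 k l) * g.1 k l = a := by
    intro l
    have := congrFun (congrFun ha l) l
    simpa [mul_apply] using this
  have a1 : a = 1 := by
    rw [← e2 0, Finset.sum_eq_single 0]
    · have : g.1 0 0 = 1 := by
        rw [e1, show rn 0 = 0 from rfl, if_pos rfl]
        linear_combination c 0 * D.two
      rw [this, map_one, one_mul]
    · intro b _ hb
      have hb' : rn b ≠ 0 := by clear * - hb; revert b; decide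
      rw [e1, if_neg hb, if_neg hb']
      simp
    · simp
  have i1 : rn i ≠ i := by clear * - i0; revert i; decide
  have e3 := e2 i
  rw [Finset.sum_eq_add i (rn i) i1.symm, e1, e1, rr, if_pos rfl, if_neg i1, h1, a1] at e3
  · simp only [add_zero, mul_one, map_add, map_one, zero_add] at e3
    rw [D.bar.eq] at e3
    linear_combination e3 - (c i ^ 32 * c i + c i) * D.two
  · intro b _ hb
    have hb' : rn b ≠ i := fun k => hb.2 (by rw [← k, rr])
    rw [e1, if_neg hb.1, if_neg hb']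
    simp
  · simp
  · simp

/-- `w⁻¹ = t w` and `B t = B` -/
theorem cj_w (hB : BB M B) : cj w B = W11 ζ * B * W11 ζ := by
  have e : w⁻¹ = t * w := by
    rw [inv_eq_iff_mul_eq_one, ← mul_assoc, ← D.tw, mul_assoc, ← sq, D.ww, D.tt]
  have e2 : B * t.1 = B := by
    obtain ⟨⟨Y, rfl⟩, -⟩ := hB
    rw [D.te, mul_add, mul_one, Matrix.mul_assoc _ (ta F) (ta F), ta_sq D.two, mul_zero, add_zero]
  rw [cj_def, e, Units.val_mul, D.hw, D.g1, one_smul, ← Matrix.mul_assoc, Matrix.mul_assoc _ B, e2]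

/-- `bb_ee (bb_cj (ee_bb hc) D.cw)`, `cj_w`, `sum_o5` -/
theorem ee_om (hc : EE M c) : EE M (Om ζ c) := by
  have := D.bb_ee (D.bb_cj (D.ee_bb hc) D.cw)
  rw [D.cj_w (D.ee_bb hc)] at this
  convert this using 1
  ext a
  have e : ∀ k : Fin 11, W11 ζ a k * (diagonal c * (ta F * W11 ζ)) k a = c k * (ζ ^ (4 * a.1 * k.1) + 1) := by
    intro k
    rw [diagonal_mul, ta_mul]
    simp only [W11, of_apply]
    rw [z_eq D.prim (m := 4 * a.1 * k.1) (n := 2 * a.1 * k.1 % 11 + 2 * k.1 * a.1 % 11) (by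
        clear * -; revert a k; decide),
      ← pow_zero ζ, z_eq D.prim (m := 0) (n := 2 * a.1 * k.1 % 11 + 2 * (rn k).1 * a.1 % 11) (by
        clear * -; revert a k; decide), pow_add, pow_add]
    ring
  rw [diag_apply, Matrix.mul_assoc, Matrix.mul_assoc, mul_apply, Finset.sum_congr rfl fun k _ => e k, sum_o5, Om]
  have e0 : c 0 * (ζ ^ (4 * a.1 * (0 : Fin 11).1) + 1) = 0 := by
    simp only [Fin.val_zero, mul_zero, pow_zero]
    linear_combination c 0 * D.two
  rw [e0, zero_add]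
  refine Finset.sum_congr rfl fun b _ => ?_
  rw [hc.1, tau, z_eq D.prim (m := 10 * (4 * a.1 * (o5 b).1)) (n := 4 * a.1 * (rn (o5 b)).1) (by
    clear * -; revert a b; decide)]
  linear_combination -c (o5 b) * D.two

/-- `diagonal c * ta F = vecMulVec (c i • a) a` for `a = e_i + e_{-i}` -/
theorem ee_tv (hc : EE M c) {i : Fin 11} (h0 : ∀ j, j ≠ 0 → j ≠ i → j ≠ rn i → c j = 0) (i0 : i ≠ 0) :
    c i = 0 := by
  obtain ⟨h1, g, hg, e⟩ := hc
  have i1 : rn i ≠ i := by clear * - i0; revert i; decide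
  have i2 : rn i ≠ 0 := by clear * - i0; revert i; decide
  set a : Fin 11 → F := fun k => (if i = k then 1 else 0) + if rn i = k then 1 else 0 with ha
  have ai : a i = 1 := by simp [ha, i1]
  have ar : a (rn i) = 1 := by simp [ha, i1.symm]
  have e1 : diagonal c * ta F = vecMulVec (c i • a) a := by
    ext j k
    rw [diagonal_mul, ta_apply, vecMulVec_apply, Pi.smul_apply, smul_eq_mul]
    by_cases j0 : j = 0
    · subst j0
      have : a 0 = 0 := by simp [ha, i0, i2]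
      rw [this, show rn 0 = 0 from rfl]
      linear_combination c 0 * (if 0 = k then 1 else 0) * D.two
    by_cases j1 : j = i
    · rw [j1, ai, mul_one]
    by_cases j2 : j = rn i
    · rw [j2, ar, mul_one, h1, rr, add_comm]
    have : a j = 0 := by simp [ha, Ne.symm j1, Ne.symm j2]
    rw [this, h0 j j0 j1 j2]
    simp
  have e2 : a ⬝ᵥ (c i • a) = 0 := by
    rw [dotProduct_smul, smul_eq_mul, dotProduct, Finset.sum_eq_add i (rn i) i1.symm, ai, ar]
    · linear_combination c i * D.two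
    · intro b _ hb
      simp [ha, Ne.symm hb.1, Ne.symm hb.2]
    · simp
    · simp
  rcases D.nt g hg _ _ e2 (by rw [e, e1]) with k | k
  · simpa [ai] using congrFun k i
  · simpa [ai] using congrFun k i

end OvE

end Cfsg.Lib.C6W
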