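import Cfsg.Agent.Lib.C6W.EvA

/-! The trace of `F₃₂` and orders of elements of `SL₂(32)`. -/

set_option autoImplicit false
set_option linter.unusedSectionVars false

namespace Cfsg.Lib.C6W

open scoped MatrixGroups
open Subgroup Matrix MulAction Cfsg.Geo Cfsg.Lib.C6 Cfsg.Lib.C6E
open Cfsg.Lib.Asch hiding tr

variable {F : Type*} [Field F] {ζ z : F}

/-- the trace of `F₃₂` over `F₂` -/
def T5 (z : F) : F := z + z ^ 2 + z ^ 4 + z ^ 8 + z ^ 16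

variable (c2 : (2 : F) = 0)
include c2

theorem T5_add (a b : F) : T5 (a + b) = T5 a + T5 b := by
  haveI : CharP F 2 := (CharP.charP_iff_prime_eq_zero Nat.prime_two).2 (by exact_mod_cast c2)
  have h := fun k => add_pow_char_pow a b 2 k
  have h1 := h 1
  have h2 := h 2
  have h3 := h 3
  have h4 := h 4
  norm_num only at h1 h2 h3 h4
  simp only [T5]
  linear_combination h1 + h2 + h3 + h4

theorem T5_sq (h : z ^ 32 = z) : T5 (z ^ 2) = T5 z := by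
  simp only [T5]
  linear_combination h

/-- `T5 z ^ 2 = T5 (z ^ 2) = T5 z` -/
theorem T5_cases (h : z ^ 32 = z) : T5 z = 0 ∨ T5 z = 1 := by
  haveI : CharP F 2 := (CharP.charP_iff_prime_eq_zero Nat.prime_two).2 (by exact_mod_cast c2)
  have k : T5 z ^ 2 = T5 (z ^ 2) := by simp only [T5, CharTwo.add_sq, ← pow_mul]
  rw [T5_sq c2 h] at k
  exact (mul_eq_zero.1 (show T5 z * (T5 z - 1) = 0 by linear_combination k)).imp_right sub_eq_zero.1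

theorem evb_sq {A : Matrix (Fin 2) (Fin 2) F} (hd : A.det = 1) :
    A * A = A.trace • A + (1 : Matrix (Fin 2) (Fin 2) F) := by
  rw [det_fin_two] at hd
  ext i j
  fin_cases i <;> fin_cases j <;> simp [mul_apply, Fin.sum_univ_two, trace_fin_two]
  · linear_combination -hd - c2
  · ring
  · ring
  · linear_combination -hd - c2

theorem evb_step {A : Matrix (Fin 2) (Fin 2) F} (hd : A.det = 1) {n : ℕ} {a b : F}
    (h : A ^ n = a • A + b • (1 : Matrix (Fin 2) (Fin 2) F)) :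
    A ^ (n + n) = (a ^ 2 * A.trace) • A + (a ^ 2 + b ^ 2) • (1 : Matrix (Fin 2) (Fin 2) F) := by
  rw [pow_add, h]
  simp only [mul_add, add_mul, smul_mul_assoc, mul_smul_comm, evb_sq c2 hd, mul_one, one_mul]
  generalize A.trace = s
  match_scalars
  · linear_combination (a * b) * c2
  · ring

/-- `A² = s A + 1`; `Y = s⁻¹ A` has `Y² = Y + s⁻²`, so `Y³² = Y + T5 (s⁻²)`. -/
theorem pow32 {A : Matrix (Fin 2) (Fin 2) F} (hd : A.det = 1) (h : A.trace ^ 32 = A.trace) (h0 : A.trace ≠ 0) :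
    A ^ 32 = A + (A.trace * T5 (A.trace⁻¹ ^ 2)) • (1 : Matrix (Fin 2) (Fin 2) F) := by
  haveI : CharP F 2 := (CharP.charP_iff_prime_eq_zero Nat.prime_two).2 (by exact_mod_cast c2)
  have k := evb_step c2 hd (evb_step c2 hd (evb_step c2 hd (evb_step c2 hd (evb_step c2 hd
    (show A ^ 1 = (1 : F) • A + (0 : F) • (1 : Matrix (Fin 2) (Fin 2) F) by simp)))))
  simp only [CharTwo.add_sq, mul_pow, one_pow, one_mul, ← pow_mul, ← pow_succ, Nat.reduceAdd, Nat.reduceMul,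
    ne_eq, OfNat.ofNat_ne_zero, not_false_eq_true, zero_pow, add_zero] at k
  rw [k]
  generalize A.trace = s at h h0
  have h1 : s ^ 31 = 1 := mul_left_cancel₀ h0 (by linear_combination h)
  obtain ⟨r, hr⟩ : ∃ r, s * r = 1 := ⟨s⁻¹, mul_inv_cancel₀ h0⟩
  rw [← eq_inv_of_mul_eq_one_right hr]
  have h2 : ∀ i j : ℕ, i + j = 31 → s * r ^ (j + 1) = s ^ i := fun i j e => by
    have : s ^ i * (s * r) ^ j = s ^ i := by rw [hr, one_pow, mul_one]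
    rw [mul_pow, ← mul_assoc, ← pow_add, e, h1, one_mul] at this
    rw [pow_succ', ← mul_assoc, hr, one_mul, this]
  simp only [T5]
  match_scalars
  · linear_combination h1
  · linear_combination -(h2 30 1 rfl + h2 28 3 rfl + h2 24 7 rfl + h2 16 15 rfl + h2 0 31 rfl)

theorem pow31 {A : Matrix (Fin 2) (Fin 2) F} (hd : A.det = 1) (h : A.trace ^ 32 = A.trace) (h0 : A.trace ≠ 0) :
    A ^ 31 = 1 ↔ T5 (A.trace⁻¹ ^ 2) = 0 := by
  have k := pow32 c2 hd h h0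
  have u : IsUnit A := (isUnit_iff_isUnit_det A).2 (by rw [hd]; exact isUnit_one)
  rw [pow_succ] at k
  refine ⟨fun e => ?_, fun e => u.mul_right_cancel (by rw [k, e, mul_zero, zero_smul, add_zero, one_mul])⟩
  rw [e, one_mul, left_eq_add, smul_eq_zero] at k
  exact (mul_eq_zero.1 (k.resolve_right one_ne_zero)).resolve_left h0

/-- `A ^ 31 = 1`, or `A ^ 33 = A (A + s) = 1` -/
theorem pow1023 {A : Matrix (Fin 2) (Fin 2) F} (hd : A.det = 1) (h : A.trace ^ 32 = A.trace)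
    (h0 : A.trace ≠ 0) : A ^ 1023 = 1 := by
  rcases T5_cases c2 (z := A.trace⁻¹ ^ 2) (by rw [pow_right_comm, inv_pow _ 32, h]) with e | e
  · rw [show 1023 = 31 * 33 from rfl, pow_mul, (pow31 c2 hd h h0).2 e, one_pow]
  · have k : A ^ 33 = 1 := by
      rw [pow_succ, pow32 c2 hd h h0, e, add_mul, evb_sq c2 hd, smul_mul_assoc, one_mul]
      generalize A.trace = s
      match_scalars
      · linear_combination s * c2
      · ring
    rw [show 1023 = 33 * 31 from rfl, pow_mul, k, one_pow]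

variable (hz : IsPrimitiveRoot ζ 11)
include hz

theorem tau_sq (n : ℕ) : tau ζ n ^ 2 = tau ζ (2 * n) := by
  simp only [tau]
  linear_combination (ζ ^ n * ζ ^ (10 * n)) * c2

theorem tau_eq {m n : ℕ} (h : m % 11 = n % 11 ∨ (m + n) % 11 = 0) : tau ζ m = tau ζ n := by
  have zm : ∀ a b, a % 11 = b % 11 → ζ ^ a = ζ ^ b := fun a b e => by
    rw [pow_eq_pow_mod a hz.pow_eq_one, e, ← pow_eq_pow_mod b hz.pow_eq_one]
  rcases h with h | h
  · rw [tau, tau, zm m n h, zm (10 * m) (10 * n) (by omega)]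
  · rw [tau, tau, zm m (10 * n) (by omega), zm (10 * m) n (by omega), add_comm]

theorem tau_p4 (n : ℕ) : tau ζ n ^ 4 = tau ζ (4 * n) := by
  rw [show 4 = 2 * 2 from rfl, pow_mul, tau_sq c2 hz, tau_sq c2 hz, mul_assoc]

theorem tau_p8 (n : ℕ) : tau ζ n ^ 8 = tau ζ (8 * n) := by
  rw [show 8 = 2 * 4 from rfl, pow_mul, tau_sq c2 hz, tau_p4 c2 hz, mul_left_comm, mul_assoc]

theorem tau_p16 (n : ℕ) : tau ζ n ^ 16 = tau ζ (16 * n) := by
  rw [show 16 = 2 * 8 from rfl, pow_mul, tau_sq c2 hz, tau_p8 c2 hz, mul_left_comm, mul_assoc]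

theorem T5_tau (z : F) (n : ℕ) : T5 (z * tau ζ n) = z * tau ζ n + z ^ 2 * tau ζ (2 * n) + z ^ 4 * tau ζ (4 * n) +
    z ^ 8 * tau ζ (8 * n) + z ^ 16 * tau ζ (16 * n) := by
  simp only [T5, mul_pow, tau_sq c2 hz, tau_p4 c2 hz, tau_p8 c2 hz, tau_p16 c2 hz]

theorem tau_mul_inv {n : ℕ} (h : n % 11 ≠ 0) : tau ζ n * (tau ζ n + tau ζ (2 * n) + tau ζ (5 * n)) = 1 := by
  have hη := hz.pow_of_coprime n (((Nat.Prime.coprime_iff_not_dvd (by norm_num)).2 (by omega)).symm)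
  have k : ∀ m, tau ζ (m * n) = (ζ ^ n) ^ m + (ζ ^ n) ^ (10 * m) := fun m => by simp only [tau]; ring
  have k1 := k 1
  rw [one_mul] at k1
  rw [k, k, k1]
  have h1 := hη.pow_eq_one
  have h2 := hη.geom_sum_eq_zero (by norm_num)
  simp only [Finset.sum_range_succ, Finset.sum_range_zero] at h2
  generalize ζ ^ n = η at h1 h2
  grind

theorem tau_fix (n : ℕ) : tau ζ n ^ 32 = tau ζ n := by
  rw [show 32 = 2 * 16 from rfl, pow_mul, tau_sq c2 hz, tau_p16 c2 hz]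
  exact tau_eq c2 hz (by omega)

theorem tau_ne {n : ℕ} (h : n % 11 ≠ 0) : tau ζ n ≠ 0 := by
  exact left_ne_zero_of_mul_eq_one (tau_mul_inv c2 hz h)

theorem tau_inv {n : ℕ} (h : n % 11 ≠ 0) : (tau ζ n)⁻¹ = tau ζ n + tau ζ (2 * n) + tau ζ (5 * n) := by
  exact (eq_inv_of_mul_eq_one_right (tau_mul_inv c2 hz h)).symm

theorem tau_sums : tau ζ 1 + tau ζ 2 + tau ζ 3 + tau ζ 4 + tau ζ 5 = 1 ∧
    tau ζ 1 * tau ζ 1 + tau ζ 2 * tau ζ 2 + tau ζ 3 * tau ζ 3 + tau ζ 4 * tau ζ 4 + tau ζ 5 * tau ζ 5 = 1 ∧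
    tau ζ 1 * tau ζ 2 + tau ζ 2 * tau ζ 4 + tau ζ 3 * tau ζ 5 + tau ζ 4 * tau ζ 3 + tau ζ 5 * tau ζ 1 = 0 ∧
    tau ζ 1 * tau ζ 4 + tau ζ 2 * tau ζ 3 + tau ζ 3 * tau ζ 1 + tau ζ 4 * tau ζ 5 + tau ζ 5 * tau ζ 2 = 0 := by
  have a1 := hz.pow_eq_one
  have a2 := hz.geom_sum_eq_zero (by norm_num)
  simp only [Finset.sum_range_succ, Finset.sum_range_zero] at a2
  simp only [tau]
  refine ⟨?_, ?_, ?_, ?_⟩ <;> grind

theorem nd2' {e : F} (h1 : T5 (z * tau ζ 1) = e) (h2 : T5 (z * tau ζ 2) = e) (h3 : T5 (z * tau ζ 3) = e)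
    (h4 : T5 (z * tau ζ 4) = e) (h5 : T5 (z * tau ζ 5) = e) : z = e := by
  have q := fun m n (h : m % 11 = n % 11 ∨ (m + n) % 11 = 0) => tau_eq c2 hz h
  rw [T5_tau c2 hz] at h1 h2 h3 h4 h5
  rw [q (2 * 1) 2 (by omega), q (4 * 1) 4 (by omega), q (8 * 1) 3 (by omega), q (16 * 1) 5 (by omega)] at h1
  rw [q (2 * 2) 4 (by omega), q (4 * 2) 3 (by omega), q (8 * 2) 5 (by omega), q (16 * 2) 1 (by omega)] at h2
  rw [q (2 * 3) 5 (by omega), q (4 * 3) 1 (by omega), q (8 * 3) 2 (by omega), q (16 * 3) 4 (by omega)] at h3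
  rw [q (2 * 4) 3 (by omega), q (4 * 4) 5 (by omega), q (8 * 4) 1 (by omega), q (16 * 4) 2 (by omega)] at h4
  rw [q (2 * 5) 1 (by omega), q (4 * 5) 2 (by omega), q (8 * 5) 4 (by omega), q (16 * 5) 3 (by omega)] at h5
  obtain ⟨s, s0, s1, s2⟩ := tau_sums c2 hz
  linear_combination tau ζ 1 * h1 + tau ζ 2 * h2 + tau ζ 3 * h3 + tau ζ 4 * h4 + tau ζ 5 * h5 + e * s - z * s0 -
    (z ^ 2 + z ^ 16) * s1 - (z ^ 4 + z ^ 8) * s2

/-- `z = ∑ m = 1..5, tau m * T5 (z * tau m)` (expand; `tau a * tau b = tau (a+b) + tau (a-b)`,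
`∑ m = 1..5, tau m = 1`) -/
theorem nd2 {e : F} (h : ∀ m, m % 11 ≠ 0 → T5 (z * tau ζ m) = e) : z = e := by
  exact nd2' c2 hz (h 1 (by omega)) (h 2 (by omega)) (h 3 (by omega)) (h 4 (by omega)) (h 5 (by omega))

/-- `tau_inv`: `a m = T5 (z * tau m)` has `a m + a (2m) + a (5m) = 0`, so `a = 0`; `nd2` -/
theorem nd1 (h : ∀ m, m % 11 ≠ 0 → T5 (z * (tau ζ m)⁻¹) = 0) : z = 0 := by
  have q := fun m n (h : m % 11 = n % 11 ∨ (m + n) % 11 = 0) => tau_eq c2 hz h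
  have k : ∀ m, m % 11 ≠ 0 → T5 (z * tau ζ m) + T5 (z * tau ζ (2 * m)) + T5 (z * tau ζ (5 * m)) = 0 :=
    fun m hm => by rw [← T5_add c2, ← T5_add c2, ← mul_add, ← mul_add, ← tau_inv c2 hz hm, h m hm]
  have h1 := k 1 (by omega)
  have h2 := k 2 (by omega)
  have h3 := k 3 (by omega)
  have h4 := k 4 (by omega)
  have h5 := k 5 (by omega)
  rw [q (2 * 1) 2 (by omega), q (5 * 1) 5 (by omega)] at h1
  rw [q (2 * 2) 4 (by omega), q (5 * 2) 1 (by omega)] at h2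
  rw [q (2 * 3) 5 (by omega), q (5 * 3) 4 (by omega)] at h3
  rw [q (2 * 4) 3 (by omega), q (5 * 4) 2 (by omega)] at h4
  rw [q (2 * 5) 1 (by omega), q (5 * 5) 3 (by omega)] at h5
  refine nd2' c2 hz ?_ ?_ ?_ ?_ ?_ <;>
    generalize T5 (z * tau ζ 1) = a1, T5 (z * tau ζ 2) = a2, T5 (z * tau ζ 3) = a3, T5 (z * tau ζ 4) = a4,
      T5 (z * tau ζ 5) = a5 at * <;> grind

/-- With `d i = (c i)⁻¹ ^ 2`: `T5 (d (2i) τ⁻⁴) = T5 (d i τ⁻²) = T5 (d i ² τ⁻⁴)` for `τ = tau (m i)`, so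
`d (2i) = d i ²` (`nd1`, `τ⁴ = tau (4 m i)`), `c (r2 i) = c i ²`, `Om ζ c a = T5 (c 1 * tau (4a)) ∈ {0, 1}` is
constant, `c 1 ∈ {0, 1}` by `nd2`. -/
theorem ee_alg {c : Fin 11 → F} (hs : ∀ i, c (rn i) = c i) (hf : ∀ i, i ≠ 0 → c i ^ 32 = c i)
    (h0 : ∀ i, i ≠ 0 → c i ≠ 0)
    (h1 : ∀ (m : ℕ) (i j : Fin 11), m % 11 ≠ 0 → i ≠ 0 → j ≠ 0 →
      T5 ((c i * tau ζ (m * i.1))⁻¹ ^ 2) = 0 → T5 ((c j * tau ζ (m * j.1))⁻¹ ^ 2) = 0)
    (h2 : (∀ a, a ≠ 0 → Om ζ c a = 0) ∨ ∀ a, a ≠ 0 → Om ζ c a ≠ 0) : c 1 = 1 := by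
  haveI : CharP F 2 := (CharP.charP_iff_prime_eq_zero Nat.prime_two).2 (by exact_mod_cast c2)
  have fx : ∀ (m : ℕ) i, i ≠ 0 → ((c i * tau ζ m)⁻¹ ^ 2) ^ 32 = (c i * tau ζ m)⁻¹ ^ 2 := fun m i hi => by
    rw [pow_right_comm, inv_pow _ 32, mul_pow, hf i hi, tau_fix c2 hz]
  have e1 : ∀ (m : ℕ) (i j : Fin 11), m % 11 ≠ 0 → i ≠ 0 → j ≠ 0 →
      T5 ((c i * tau ζ (m * i.1))⁻¹ ^ 2) = T5 ((c j * tau ζ (m * j.1))⁻¹ ^ 2) := fun m i j hm hi hj => by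
    rcases T5_cases c2 (fx (m * i.1) i hi) with a | a
    · rw [a, h1 m i j hm hi hj a]
    rcases T5_cases c2 (fx (m * j.1) j hj) with b | b
    · rw [b, h1 m j i hm hj hi b]
    · rw [a, b]
  have ex : ∀ i k : Fin 11, i ≠ 0 → k ≠ 0 → ∃ m : Fin 11, m ≠ 0 ∧ m.1 % 11 ≠ 0 ∧ 4 * (m.1 * i.1) % 11 = k.1 := by
    decide
  have ex' : ∀ i : Fin 11, i ≠ 0 → ∀ k : ℕ, k % 11 ≠ 0 →
      ∃ m : Fin 11, m ≠ 0 ∧ m.1 % 11 ≠ 0 ∧ 4 * (m.1 * i.1) % 11 = k % 11 := fun i hi k hk =>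
    ex i ⟨k % 11, Nat.mod_lt _ (by norm_num)⟩ hi fun e => hk (congrArg Fin.val e)
  have r2v : ∀ m i : Fin 11, (m.1 * (r2 i).1) % 11 = (2 * (m.1 * i.1)) % 11 := by decide
  have r20 : ∀ i : Fin 11, i ≠ 0 → r2 i ≠ 0 := by decide
  have e2 : ∀ i, i ≠ 0 → c (r2 i) = c i ^ 2 := fun i hi => by
    have := nd1 c2 hz (z := (c (r2 i))⁻¹ ^ 2 + ((c i)⁻¹ ^ 2) ^ 2) fun k hk => by
      obtain ⟨m, -, m0, hm⟩ := ex' i hi k hk
      have a := e1 m i (r2 i) m0 hi (r20 i hi)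
      rw [← T5_sq c2 (fx _ i hi), tau_eq c2 hz (.inl (r2v m i)), ← tau_sq c2 hz] at a
      rw [← tau_eq c2 hz (.inl hm), ← tau_p4 c2 hz, add_mul, T5_add c2, CharTwo.add_eq_zero]
      convert a.symm using 2 <;> ring
    rw [CharTwo.add_eq_zero] at this
    have := CharTwo.sq_injective this
    rwa [inv_pow, _root_.inv_inj] at this
  have c2' : c 2 = c 1 ^ 2 := e2 1 (by decide)
  have c4 : c 4 = c 2 ^ 2 := e2 2 (by decide)
  have c3 : c 3 = c 4 ^ 2 := (hs 8).trans (e2 4 (by decide))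
  have c5 : c 5 = c 3 ^ 2 := (e2 8 (by decide)).trans (congrArg (· ^ 2) (hs 3))
  have om : ∀ a, Om ζ c a = T5 (c 1 * tau ζ (4 * (a.1 * (1 : Fin 11).1))) := fun a => by
    have q := fun m n (h : m % 11 = n % 11 ∨ (m + n) % 11 = 0) => tau_eq c2 hz h
    have : Om ζ c a = c 1 * tau ζ (4 * a.1 * 1) + c 2 * tau ζ (4 * a.1 * 2) + c 3 * tau ζ (4 * a.1 * 3) +
        c 4 * tau ζ (4 * a.1 * 4) + c 5 * tau ζ (4 * a.1 * 5) := by
      rw [Om, Fin.sum_univ_five]; rfl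
    rw [this, T5_tau c2 hz, c5, c3, c4, c2', show (1 : Fin 11).1 = 1 from rfl,
      q (4 * a.1 * 1) (4 * (a.1 * 1)) (by omega), q (4 * a.1 * 2) (2 * (4 * (a.1 * 1))) (by omega),
      q (4 * a.1 * 3) (8 * (4 * (a.1 * 1))) (by omega), q (4 * a.1 * 4) (4 * (4 * (a.1 * 1))) (by omega),
      q (4 * a.1 * 5) (16 * (4 * (a.1 * 1))) (by omega)]
    ring
  rcases h2 with h2 | h2
  · refine absurd (nd2 c2 hz (e := 0) fun k hk => ?_) (h0 1 (by decide))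
    obtain ⟨m, m0, -, hm⟩ := ex' 1 (by decide) k hk
    rw [← tau_eq c2 hz (.inl hm), ← om, h2 m m0]
  · refine nd2 c2 hz fun k hk => ?_
    obtain ⟨m, m0, -, hm⟩ := ex' 1 (by decide) k hk
    rw [← tau_eq c2 hz (.inl hm)]
    exact (T5_cases c2 (by rw [mul_pow, hf 1 (by decide), tau_fix c2 hz])).resolve_left (om m ▸ h2 m m0)

end Cfsg.Lib.C6W
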