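import Cfsg.Agent.Lib.C6W.EvB

/-! The block diagonal elements `EE M` are `0` and `1`. -/

set_option autoImplicit false
set_option linter.unusedSectionVars false

namespace Cfsg.Lib.C6W

open scoped MatrixGroups
open Subgroup Matrix MulAction Cfsg.Geo Cfsg.Lib.C6 Cfsg.Lib.C6E
open Cfsg.Lib.Asch hiding tr

variable {F : Type*} [Field F] {σ : F →+* F} {ζ γ : F}

local notation "G11" => GL (Fin 11) F
local notation "M11" => Matrix (Fin 11) (Fin 11) F

theorem fpf_inv {G : Type*} [Group G] {N : Subgroup G} [Finite N] {a : G} (a2 : a * a = 1)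
    (hn : ∀ n ∈ N, a * n * a⁻¹ ∈ N) (hf : ∀ n ∈ N, a * n = n * a → n = 1) {n : G} (h : n ∈ N) :
    a * n * a⁻¹ = n⁻¹ := by
  let φ : N →* N := ((MulAut.conj a).toMonoidHom.comp N.subtype).codRestrict N fun n => hn n n.2
  have := MonoidHom.FixedPointFree.coe_eq_inv_of_involutive (φ := φ) (fun n e => Subtype.ext
    (hf n n.2 (mul_inv_eq_iff_eq_mul.1 (congrArg Subtype.val e)))) fun n => Subtype.ext (by
      change a * (a * n * a⁻¹) * a⁻¹ = n
      rw [inv_eq_of_mul_eq_one_right a2, ← mul_assoc, ← mul_assoc, a2, one_mul, mul_assoc, a2, mul_one])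
  exact congrArg Subtype.val (congrFun this ⟨n, h⟩)

/-- the block on `e_i`, `e_{-i}` -/
def bk (i : Fin 11) (A : M11) : Matrix (Fin 2) (Fin 2) F := !![A i i, A i (rn i); A (rn i) i, A (rn i) (rn i)]

/-- block diagonal -/
def BD (A : M11) : Prop := ∀ i j, j ≠ i → j ≠ rn i → A i j = 0

theorem rn_ne {i : Fin 11} (i0 : i ≠ 0) : i ≠ rn i := by revert i; decide

section
variable {A B : Matrix (Fin 11) (Fin 11) F} {i : Fin 11}

theorem BD.app (hA : BD A) (i0 : i ≠ 0) (j : Fin 11) :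
    (A * B) i j = A i i * B i j + A i (rn i) * B (rn i) j := by
  rw [mul_apply, Fintype.sum_eq_add i (rn i) (rn_ne i0) fun l hl => by rw [hA i l hl.1 hl.2, zero_mul]]

theorem BD.app0 (hA : BD A) (j : Fin 11) : (A * B) 0 j = A 0 0 * B 0 j := by
  rw [mul_apply, Finset.sum_eq_single 0 (fun l _ hl => by rw [hA 0 l hl hl, zero_mul]) (by simp)]

theorem BD.bk_mul (hA : BD A) (i0 : i ≠ 0) : bk i (A * B) = bk i A * bk i B := by
  have r0 : rn i ≠ 0 := by clear * - i0; revert i; decide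
  simp only [bk, hA.app i0, hA.app r0, rr, mul_fin_two, add_comm]

theorem BD.mul (hA : BD A) (hB : BD B) : BD (A * B) := fun i j h1 h2 => by
  by_cases i0 : i = 0
  · subst i0; rw [hA.app0, hB 0 j h1 h2, mul_zero]
  · rw [hA.app i0, hB i j h1 h2, hB (rn i) j h2 (by rwa [rr]), mul_zero, mul_zero, add_zero]

theorem bd_one : BD (1 : M11) := fun _ _ h _ => one_apply_ne h.symm

theorem bk_one (i0 : i ≠ 0) : bk i (1 : M11) = 1 := by
  simp [bk, rn_ne i0, (rn_ne i0).symm, one_fin_two]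

theorem BD.ext (hA : BD A) (hB : BD B) (h0 : A 0 0 = B 0 0) (h : ∀ i, i ≠ 0 → bk i A = bk i B) : A = B := by
  ext i j
  by_cases e : j = i
  · subst e
    by_cases i0 : j = 0
    · rw [i0, h0]
    · exact congrFun₂ (h j i0) 0 0
  by_cases e' : j = rn i
  · subst e'
    exact congrFun₂ (h i (by rintro rfl; exact e rfl)) 0 1
  rw [hA i j e e', hB i j e e']

theorem ek_app (c : Fin 11 → F) (i j : Fin 11) : (1 + diagonal c * ta F) i j =
    (if i = j then 1 + c i else 0) + if rn i = j then c i else 0 := by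
  rw [Matrix.add_apply, diagonal_mul, ta_apply, one_apply]
  split_ifs <;> ring

theorem ek_bd (c : Fin 11 → F) : BD (1 + diagonal c * ta F) := fun i j h1 h2 => by
  rw [ek_app, if_neg h1.symm, if_neg h2.symm, add_zero]

theorem ek_bk {c : Fin 11 → F} (hs : ∀ i, c (rn i) = c i) (i0 : i ≠ 0) :
    bk i (1 + diagonal c * ta F) = !![1 + c i, c i; c i, 1 + c i] := by
  simp only [bk, ek_app]
  simp [rr, hs, rn_ne i0, (rn_ne i0).symm]

end

/-- block diagonal elements of `M` with blocks of determinant one -/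
def LL [Finite F] (M : Subgroup G11) : Subgroup G11 :=
  let S : Submonoid G11 :=
    { carrier := {g | g ∈ M ∧ BD g.1 ∧ g.1 0 0 = 1 ∧ ∀ i, i ≠ 0 → (bk i g.1).det = 1}
      one_mem' := ⟨M.one_mem, bd_one, rfl, fun i i0 => by rw [Units.val_one, bk_one i0, det_one]⟩
      mul_mem' := fun ⟨a1, a2, a3, a4⟩ ⟨b1, b2, b3, b4⟩ => ⟨M.mul_mem a1 b1, a2.mul b2, by
        rw [Units.val_mul, a2.app0, a3, b3, one_mul], fun i i0 => by
        rw [Units.val_mul, a2.bk_mul i0, det_mul, a4 i i0, b4 i i0, one_mul]⟩ }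
  { S with
    inv_mem' := fun {a} ha => by
      rw [← eq_inv_of_mul_eq_one_left (a := a ^ (orderOf a - 1)) (by
        rw [← pow_succ, Nat.sub_add_cancel (orderOf_pos a), pow_orderOf_eq_one])]
      exact S.pow_mem ha _ }

theorem bk_pow [Finite F] {M : Subgroup G11} {g : G11} (hg : g ∈ LL M) {i : Fin 11} (i0 : i ≠ 0) (n : ℕ) :
    bk i (g ^ n).1 = bk i g.1 ^ n := by
  induction n with
  | zero => simp [bk_one i0]
  | succ n ih => rw [pow_succ', Units.val_mul, hg.2.1.bk_mul i0, ih, pow_succ']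

theorem bits_aux (b0 b1 b2 b3 b4 b5 : Bool) (b : Fin 11 → Bool)
    (e : b = ![b0, b1, b2, b3, b4, b5, b5, b4, b3, b2, b1]) :
    ((∀ i, i ≠ 0 → b i = false) ∨ ∀ i, i ≠ 0 → b i = true) ∨ ∃ s0 s1 s2 s3 s4 s5 : Bool, ∀ i : Fin 11, i ≠ 0 →
      xor (xor (xor (xor (xor (s0 && b i) (s1 && b (r2 i))) (s2 && b (r2 (r2 i)))) (s3 && b (r2 (r2 (r2 i)))))
        (s4 && b (r2 (r2 (r2 (r2 i)))))) (s5 && true) = decide (i = 1 ∨ i = rn 1) := by
  subst e
  revert b0 b1 b2 b3 b4 b5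
  decide +kernel

variable {x y u w h t : GL (Fin 11) F} {M : Subgroup (GL (Fin 11) F)} {c : Fin 11 → F}

namespace OvE

variable [Finite F] (D : OvE σ ζ γ x y u w h t M)
include D

theorem ek_mem {k : G11} (hs : ∀ i, c (rn i) = c i) (hk : k ∈ M) (e : k.1 = 1 + diagonal c * ta F) : k ∈ LL M :=
  ⟨hk, e ▸ ek_bd c, by rw [e, ek_app]; simp [show rn 0 = 0 from rfl]; linear_combination c 0 * D.two,
    fun i i0 => by rw [e, ek_bk hs i0, det_fin_two_of]; linear_combination c i * D.two⟩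

theorem xp (m : ℕ) : (x ^ m).1 = diagonal fun i => ζ ^ (i.1 * m) := by
  simp [D.hx, diagonal_pow, ← pow_mul]

theorem xp_bk (m : ℕ) {i : Fin 11} (i0 : i ≠ 0) :
    bk i (x ^ m).1 = !![ζ ^ (m * i.1), 0; 0, ζ ^ (10 * (m * i.1))] := by
  have : ζ ^ ((rn i).1 * m) = ζ ^ (10 * (m * i.1)) := by
    rw [pow_mul, mul_comm m, ← mul_assoc, pow_mul _ _ m]
    congr 1
    exact z_eq D.prim (by clear * -; revert i; decide)
  simp [bk, D.xp, rn_ne i0, (rn_ne i0).symm, this, mul_comm m]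

theorem zz (n : ℕ) : ζ ^ n * ζ ^ (10 * n) = 1 := by
  rw [← pow_add, show n + 10 * n = 11 * n by ring, pow_mul, D.prim.pow_eq_one, one_pow]

theorem xp_mem (m : ℕ) : x ^ m ∈ LL M :=
  ⟨pow_mem D.mx m, fun i j h _ => by rw [D.xp, diagonal_apply_ne _ h.symm], by simp [D.xp], fun i i0 => by
    rw [D.xp_bk m i0, det_fin_two_of, D.zz]; simp⟩

theorem exists_g (hc : EE M c) (m : ℕ) : ∃ g ∈ LL M, ∀ i, i ≠ 0 → bk i g.1 =
    !![ζ ^ (m * i.1) * c i, ζ ^ (m * i.1) * (c i + 1);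
      ζ ^ (10 * (m * i.1)) * (c i + 1), ζ ^ (10 * (m * i.1)) * c i] := by
  obtain ⟨hs, k, hk, e⟩ := D.ee_add hc D.ee_one
  refine ⟨x ^ m * k, mul_mem (D.xp_mem m) (D.ek_mem hs hk e), fun i i0 => ?_⟩
  have : 1 + (c i + 1) = c i := by linear_combination D.two
  rw [Units.val_mul, (D.xp_mem m).2.1.bk_mul i0, D.xp_bk m i0, e, ek_bk hs i0]
  simp [this]

open Classical in
theorem ind0 (hc : EE M c) : EE M fun i => if c i = 0 then 1 else 0 := by
  obtain ⟨g, hg, e⟩ := D.exists_g hc 1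
  have hs : ∀ i, (if c (rn i) = 0 then (1 : F) else 0) = if c i = 0 then 1 else 0 := fun i => by rw [hc.1]
  have m1 := mul_mem (D.xp_mem 5) (pow_mem hg 1023)
  have m2 := mul_mem m1 (D.xp_mem 6)
  refine ⟨hs, _, m2.1, m2.2.1.ext (ek_bd _) (by
    rw [m2.2.2.1, ek_app]; simp [show rn 0 = 0 from rfl]; split_ifs <;> simp; linear_combination D.two) fun i i0 => ?_⟩
  rw [ek_bk hs i0, Units.val_mul, m1.2.1.bk_mul i0, Units.val_mul, (D.xp_mem 5).2.1.bk_mul i0, bk_pow hg i0,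
    D.xp_bk 5 i0, D.xp_bk 6 i0]
  have z : ∀ {n : ℕ}, n % 11 = 0 → ζ ^ n = 1 := fun e => (z_eq D.prim (n := 0) e).trans (pow_zero _)
  split_ifs with e0
  · have k : bk i g.1 ^ 2 = 1 := by
      rw [e i i0, e0, sq]
      simp [D.zz, one_fin_two, mul_comm (ζ ^ (10 * _))]
    rw [show 1023 = 2 * 511 + 1 by rfl, pow_succ, pow_mul (bk i g.1), k, one_pow, one_mul, e i i0, e0]
    simp only [mul_fin_two, mul_zero, zero_mul, add_zero, zero_add, mul_one, ← pow_add]
    rw [z (by omega), z (by omega), show (1 : F) + 1 = 0 by linear_combination D.two]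
  · have tr : (bk i g.1).trace = c i * tau ζ i.1 := by
      rw [e i i0, trace_fin_two_of, tau]; ring_nf
    rw [pow1023 D.two (hg.2.2.2 i i0) (by rw [tr, mul_pow, D.ee_fix hc i0, tau_fix D.two D.prim])
      (by rw [tr]; exact mul_ne_zero e0 (tau_ne D.two D.prim (by omega)))]
    simp only [mul_fin_two, mul_zero, zero_mul, add_zero, zero_add, mul_one, ← pow_add]
    rw [z (by omega), z (by omega)]

theorem bits (b : Fin 11 → Bool) (hb : EE M fun i => if b i then 1 else 0) :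
    (∀ i, i ≠ 0 → b i = false) ∨ ∀ i, i ≠ 0 → b i = true := by
  let P : (Fin 11 → Bool) → Prop := fun b => EE M fun i => if b i then 1 else 0
  have sh : ∀ {b}, P b → P (b ∘ r2) := fun hb => D.ee_shift hb
  have ad : ∀ {b b'}, P b → P b' → P fun i => xor (b i) (b' i) := fun {b b'} h1 h2 => by
    convert D.ee_add h1 h2 using 2 with i
    cases e : b i <;> cases e' : b' i <;> simp [e, e']
    linear_combination -D.two
  have on : P fun _ => true := D.ee_one
  have ze : P fun _ => false := by simpa using ad on on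
  have op : ∀ (s : Bool) {b}, P b → P fun i => s && b i := fun s b hb => by cases s <;> simpa
  have sy : ∀ i, b (rn i) = b i := fun i => by
    have := hb.1 i
    cases e : b (rn i) <;> cases e' : b i <;> simp [e, e'] at this ⊢
  by_contra n
  obtain ⟨s0, s1, s2, s3, s4, s5, k⟩ : ∃ s0 s1 s2 s3 s4 s5 : Bool, ∀ i : Fin 11, i ≠ 0 →
      xor (xor (xor (xor (xor (s0 && b i) (s1 && b (r2 i))) (s2 && b (r2 (r2 i)))) (s3 && b (r2 (r2 (r2 i)))))
        (s4 && b (r2 (r2 (r2 (r2 i)))))) (s5 && true) = decide (i = 1 ∨ i = rn 1) := by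
    refine (bits_aux (b 0) (b 1) (b 2) (b 3) (b 4) (b 5) b (funext fun i => ?_)).resolve_left n
    fin_cases i
    exacts [rfl, rfl, rfl, rfl, rfl, rfl, sy 5, sy 4, sy 3, sy 2, sy 1]
  have := D.ee_tv (ad (ad (ad (ad (ad (op s0 hb) (op s1 (sh hb))) (op s2 (sh (sh hb)))) (op s3 (sh (sh (sh hb)))))
    (op s4 (sh (sh (sh (sh hb)))))) (op s5 on)) (i := 1) (fun j j0 j1 j2 => by
      simp only [Function.comp, k j j0]; simp [j1, j2]) (by decide)
  simp only [Function.comp, k 1 (by decide)] at this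
  simp at this

theorem nomix (hc : EE M c) : (∀ i, i ≠ 0 → c i = 0) ∨ ∀ i, i ≠ 0 → c i ≠ 0 := by
  classical
  exact (D.bits (fun i => decide (c i = 0)) (by simpa using D.ind0 hc)).symm.imp (by simp) (by simp)

theorem cent_eq {k n : G11} (hs : ∀ i, c (rn i) = c i) (e : k.1 = 1 + diagonal c * ta F)
    (h0 : ∀ i, i ≠ 0 → c i ≠ 0) (hn : n ∈ LL M) {j : Fin 11} (j0 : j ≠ 0) (h1 : bk j n.1 = 1)
    (h2 : k * n = n * k) : n = 1 := by
  have k1 : ∀ i, i ≠ 0 → n.1 (rn i) i = n.1 i (rn i) ∧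
      bk i n.1 = !![1 + n.1 i (rn i), n.1 i (rn i); n.1 i (rn i), 1 + n.1 i (rn i)] := fun i i0 => by
    have h3 := congrArg (fun g : G11 => bk i g.1) h2
    simp only [Units.val_mul] at h3
    rw [hn.2.1.bk_mul i0, e, (ek_bd c).bk_mul i0, ek_bk hs i0] at h3
    have h4 := congrFun₂ h3 0 0
    have h5 := congrFun₂ h3 0 1
    have h6 := hn.2.2.2 i i0
    simp [bk, mul_apply, Fin.sum_univ_two] at h4 h5 h6 ⊢
    have a1 : n.1 (rn i) i = n.1 i (rn i) := mul_left_cancel₀ (h0 i i0) (by linear_combination h4)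
    have a2 : n.1 (rn i) (rn i) = n.1 i i := mul_left_cancel₀ (h0 i i0) (by linear_combination h5)
    have a3 : n.1 i i = 1 + n.1 i (rn i) := by
      rw [a1, a2] at h6
      refine sub_eq_zero.1 (pow_eq_zero_iff two_ne_zero |>.1 ?_)
      linear_combination h6 + (1 + n.1 i (rn i) ^ 2 - n.1 i i - n.1 i i * n.1 i (rn i) + n.1 i (rn i)) * D.two
    rw [a1, a2, a3]
    simp
  have hs' : ∀ i, n.1 (rn i) (rn (rn i)) = n.1 i (rn i) := fun i => by
    by_cases i0 : i = 0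
    · subst i0; rfl
    · rw [rr, (k1 i i0).1]
  have k2 : n.1 = 1 + diagonal (fun i => n.1 i (rn i)) * ta F := hn.2.1.ext (ek_bd _) (by
    rw [ek_app]; simp [show rn 0 = 0 from rfl, hn.2.2.1]; linear_combination D.two) fun i i0 => by
      rw [ek_bk hs' i0, (k1 i i0).2]
  have k3 := (D.nomix ⟨hs', n, hn.1, k2⟩).resolve_right fun k => k j j0 (by simpa [bk] using congrFun₂ h1 0 1)
  exact Units.ext (hn.2.1.ext bd_one hn.2.2.1 fun i i0 => by
    rw [(k1 i i0).2, k3 i i0, Units.val_one, bk_one i0, add_zero, one_fin_two])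

theorem inj (hc : EE M c) (h0 : c 1 ≠ 0) (h1 : c 1 ≠ 1) {n : G11} (hn : n ∈ LL M) {j : Fin 11} (j0 : j ≠ 0)
    (e : bk j n.1 = 1) : n = 1 := by
  let N : Subgroup G11 :=
    { carrier := {n | n ∈ LL M ∧ bk j n.1 = 1}
      one_mem' := ⟨one_mem _, bk_one j0⟩
      mul_mem' := fun ha hb => ⟨mul_mem ha.1 hb.1, by rw [Units.val_mul, ha.1.2.1.bk_mul j0, ha.2, hb.2, one_mul]⟩
      inv_mem' := fun {a} ha => ⟨inv_mem ha.1, by
        rw [← bk_one j0, ← a.mul_inv, ha.1.2.1.bk_mul j0, ha.2, one_mul]⟩ }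
  have key : ∀ {d : Fin 11 → F} {k : G11}, (∀ i, d (rn i) = d i) → k ∈ M → k.1 = 1 + diagonal d * ta F → d 1 ≠ 0 →
      ∀ n ∈ N, k * n * k⁻¹ = n⁻¹ := fun {d k} hs hk e d1 n hn => by
    have m := D.ek_mem hs hk e
    have b := D.bb_mul (D.ee_bb ⟨hs, k, hk, e⟩) (D.ee_bb ⟨hs, k, hk, e⟩)
    refine fpf_inv (N := N) (Units.ext ?_) (fun n hn => ⟨mul_mem (mul_mem m hn.1) (inv_mem m), ?_⟩) (fun n hn =>
      D.cent_eq hs e ((D.nomix ⟨hs, k, hk, e⟩).resolve_left fun k => d1 (k 1 (by decide))) hn.1 j0 hn.2) hn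
    · rw [Units.val_mul, e, add_mul, mul_add, mul_add, b, one_mul, one_mul, mul_one, add_zero, add_assoc,
        ← two_smul F, D.two, zero_smul, add_zero, Units.val_one]
    · rw [Units.val_mul, (mul_mem m hn.1).2.1.bk_mul j0, Units.val_mul, m.2.1.bk_mul j0, hn.2, mul_one,
        ← m.2.1.bk_mul j0, k.mul_inv, bk_one j0]
  obtain ⟨hs, k, hk, ek⟩ := hc
  have et : t.1 = 1 + diagonal 1 * ta F := by rw [D.te]; simp
  have e3 : (t * k).1 = 1 + diagonal (c + 1) * ta F := by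
    rw [Units.val_mul, et, ek, add_mul, mul_add, mul_add, D.bb_mul (D.ee_bb D.ee_one) (D.ee_bb ⟨hs, k, hk, ek⟩),
      show diagonal (c + 1) = diagonal c + 1 by rw [← diagonal_one, diagonal_add]; rfl, add_mul]
    simp [add_assoc]
  have hs' : ∀ i, (c + 1) (rn i) = (c + 1) i := fun i => by simp [hs]
  have c1 : (c + 1) 1 ≠ 0 := fun e => h1 (by simp at e; linear_combination e - D.two)
  have a1 := key hs hk ek h0 n ⟨hn, e⟩
  have a2 := key (fun _ => rfl) D.mt et one_ne_zero n⁻¹ (N.inv_mem ⟨hn, e⟩)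
  refine D.cent_eq hs' e3 ((D.nomix ⟨hs', _, mul_mem D.mt hk, e3⟩).resolve_left fun k => c1 (k 1 (by decide)))
    hn j0 e (mul_inv_eq_iff_eq_mul.1 ?_)
  rw [inv_inv, ← a1] at a2
  exact Eq.trans (by group) a2

end OvE

theorem OvE.ee (D : OvE σ ζ γ x y u w h t M) (hc : EE M c) :
    (∀ i, i ≠ 0 → c i = 0) ∨ ∀ i, i ≠ 0 → c i = 1 := by
  haveI := D.bar.finite
  refine (D.nomix hc).imp_right fun h0 => ?_
  have h1 : c 1 = 1 := by
    by_contra h1
    refine h1 (ee_alg D.two D.prim hc.1 (fun i => D.ee_fix hc) h0 (fun m i j m0 i0 j0 e => ?_)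
      (D.nomix (D.ee_om hc)))
    obtain ⟨g, hg, eg⟩ := D.exists_g hc m
    have k : ∀ i, i ≠ 0 → (bk i g.1 ^ 31 = 1 ↔ T5 ((c i * tau ζ (m * i.1))⁻¹ ^ 2) = 0) := fun i i0 => by
      have tr : (bk i g.1).trace = c i * tau ζ (m * i.1) := by
        rw [eg i i0, trace_fin_two_of, tau]; ring
      rw [← tr]
      refine pow31 D.two (hg.2.2.2 i i0) (by rw [tr, mul_pow, D.ee_fix hc i0, tau_fix D.two D.prim]) ?_
      rw [tr]
      refine mul_ne_zero (h0 i i0) (tau_ne D.two D.prim fun e => ?_)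
      rcases (Nat.prime_eleven.dvd_mul).1 (Nat.dvd_of_mod_eq_zero e) with e | e <;> omega
    rw [← k j j0, ← bk_pow hg j0, D.inj hc (h0 1 (by decide)) h1 (pow_mem hg 31) i0
      (by rw [bk_pow hg i0, (k i i0).2 e]), Units.val_one, bk_one j0]
  intro i i0
  have := (D.nomix (D.ee_add hc D.ee_one)).resolve_right (fun k => k 1 (by decide) (by
    simp [h1]; linear_combination D.two)) i i0
  simp at this
  linear_combination this - D.two

end Cfsg.Lib.C6W
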