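import Cfsg.Agent.Lib.C6W.EvC

/-! The kernel of the action of `C_M(t)` on `[V, t]`, `q = 32`. -/

set_option autoImplicit false
set_option linter.unusedSectionVars false

namespace Cfsg.Lib.C6W

open scoped MatrixGroups
open Subgroup Matrix MulAction Cfsg.Geo Cfsg.Lib.C6 Cfsg.Lib.C6E
open Cfsg.Lib.Asch hiding tr

variable {F : Type*} [Field F] {σ : F →+* F} {ζ γ : F}

local notation "G11" => GL (Fin 11) F
local notation "M11" => Matrix (Fin 11) (Fin 11) F

variable {x y u w h t : GL (Fin 11) F} {M : Subgroup (GL (Fin 11) F)} {B : Matrix (Fin 11) (Fin 11) F}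

theorem four_aux (hz : IsPrimitiveRoot ζ 11) {ε : Fin 11 → F}
    (hh : ∀ a m : Fin 11, ∑ i : Fin 11, ∑ j : Fin 11,
      ζ ^ (2 * (i.1 + j.1) * a.1) * ζ ^ ((i.1 * i.1 + 10 * (j.1 * j.1)) * m.1) * B i j = if a = 0 then 0 else ε m)
    {i j : Fin 11} (h1 : i + j ≠ 0) :
    121 * B i j = -∑ m : Fin 11, ζ ^ (10 * (i.1 * i.1 + 10 * (j.1 * j.1)) * m.1) * ε m := by
  have one : ∀ c : ℕ, c % 11 = 0 → ∑ a : Fin 11, ζ ^ (c * a.1) = 11 := fun c hc => by
    rw [Finset.sum_congr rfl fun (a : Fin 11) _ => z_eq hz (m := c * a.1) (n := 0) (by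
      rw [Nat.mul_mod, hc, zero_mul])]
    simp
  have e1 : ∑ a : Fin 11, ∑ m : Fin 11, ζ ^ (20 * (i.1 + j.1) * a.1) *
      (ζ ^ (10 * (i.1 * i.1 + 10 * (j.1 * j.1)) * m.1) * if a = 0 then 0 else ε m) =
      ∑ k : Fin 11, ∑ l : Fin 11, (∑ a : Fin 11, ζ ^ ((20 * (i.1 + j.1) + 2 * (k.1 + l.1)) * a.1)) *
        (∑ m : Fin 11, ζ ^ ((10 * (i.1 * i.1 + 10 * (j.1 * j.1)) + (k.1 * k.1 + 10 * (l.1 * l.1))) * m.1)) *
          B k l := by
    simp only [← hh, Finset.mul_sum, Finset.sum_mul]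
    rw [Finset.sum_congr rfl fun a _ => Finset.sum_comm, Finset.sum_comm]
    refine Finset.sum_congr rfl fun k _ => ?_
    rw [Finset.sum_congr rfl fun a _ => Finset.sum_comm, Finset.sum_comm]
    refine Finset.sum_congr rfl fun l _ => ?_
    rw [Finset.sum_comm]
    refine Finset.sum_congr rfl fun m _ => Finset.sum_congr rfl fun a _ => ?_
    rw [add_mul, add_mul (10 * _), pow_add, pow_add]
    ring
  have dd : ∀ i j k l : Fin 11, i + j ≠ 0 → (20 * (i.1 + j.1) + 2 * (k.1 + l.1)) % 11 = 0 →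
      (10 * (i.1 * i.1 + 10 * (j.1 * j.1)) + (k.1 * k.1 + 10 * (l.1 * l.1))) % 11 = 0 → k = i ∧ l = j := by
    decide +kernel
  have zz : ∀ k l : Fin 11, ¬ (k = i ∧ l = j) →
      (∑ a : Fin 11, ζ ^ ((20 * (i.1 + j.1) + 2 * (k.1 + l.1)) * a.1)) *
        (∑ m : Fin 11, ζ ^ ((10 * (i.1 * i.1 + 10 * (j.1 * j.1)) + (k.1 * k.1 + 10 * (l.1 * l.1))) * m.1)) *
          B k l = 0 := fun k l n => by
    by_cases c : (20 * (i.1 + j.1) + 2 * (k.1 + l.1)) % 11 = 0
    · rw [sum_z hz fun c' => n (dd i j k l h1 c c'), mul_zero, zero_mul]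
    · rw [sum_z hz c, zero_mul, zero_mul]
  rw [Finset.sum_eq_single i (fun k _ n => Finset.sum_eq_zero fun l _ => zz k l fun c => n c.1) (by simp),
    Finset.sum_eq_single j (fun l _ n => zz i l fun c => n c.2) (by simp), one _ (by omega),
    one _ (by omega)] at e1
  have e2 : ∑ a : Fin 11, (if a = 0 then 0 else ζ ^ (20 * (i.1 + j.1) * a.1)) = -1 := by
    have := sum_z hz (c := 20 * (i.1 + j.1)) (by clear * - h1; revert i j; decide)
    rw [Fin.sum_univ_succ] at this ⊢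
    simp only [Fin.succ_ne_zero, if_true, if_false]
    simp only [Fin.val_zero, mul_zero, pow_zero] at this
    linear_combination this
  rw [show (121 : F) = 11 * 11 by norm_num, ← e1, ← neg_one_mul, ← e2, Finset.sum_mul]
  refine Finset.sum_congr rfl fun a _ => ?_
  rw [Finset.mul_sum]
  refine Finset.sum_congr rfl fun m _ => ?_
  split_ifs <;> simp

theorem ta_ext (c2 : (2 : F) = 0) {A A' : M11} (s : ∀ i j, A (rn i) (rn j) = A i j)
    (s' : ∀ i j, A' (rn i) (rn j) = A' i j)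
    (e : ∀ a b, A (o5 a) (o5 b) - A (o5 a) (rn (o5 b)) = A' (o5 a) (o5 b) - A' (o5 a) (rn (o5 b))) :
    A * ta F = A' * ta F := by
  have r0 : rn 0 = 0 := rfl
  have cs : ∀ i : Fin 11, i = 0 ∨ ∃ a, i = o5 a ∨ i = rn (o5 a) := by decide
  have t1 : ∀ i j, A (rn i) j = A i (rn j) := fun i j => by rw [← s i, rr]
  have t2 : ∀ i j, A' (rn i) j = A' i (rn j) := fun i j => by rw [← s' i, rr]
  ext i j
  rw [mul_ta, mul_ta]
  rcases cs i with rfl | ⟨a, hi⟩
  · rw [← t1, ← t2, r0]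
    linear_combination (A 0 j - A' 0 j) * c2
  rcases cs j with rfl | ⟨b, hj⟩
  · rw [r0]
    linear_combination (A i 0 - A' i 0) * c2
  have := e a b
  rcases hi with rfl | rfl <;> rcases hj with rfl | rfl <;> (try simp only [t1, t2, rr]) <;>
    linear_combination this + (A (o5 a) (rn (o5 b)) - A' (o5 a) (rn (o5 b))) * c2

namespace OvE

variable (D : OvE σ ζ γ x y u w h t M)
include D

/-- Fourier inversion.  `Φ a m = (cj (w * u ^ m) B) a a = ∑ i j, ζ ^ (2a(i+j) + m(i²-j²)) B i j` (`cj_w`) is `0` for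
`a = 0` (`row`) and `ε m` for `a ≠ 0` (`bb_ee`, `ee`).  For `i + j ≠ 0`:
`∑ a m, ζ ^ (-2a(i+j) - m(i²-j²)) Φ a m` is `B i j` (`sum_z` twice, `11 = 1`) and is
`∑ m, ζ ^ (-m(i²-j²)) ε m` (`∑ a ≠ 0, ζ ^ (a p) = -1 = 1`). -/
theorem bb_four (hB : BB M B) {i j k l : Fin 11} (h1 : i + j ≠ 0) (h2 : k + l ≠ 0)
    (e : i * i + l * l = k * k + j * j) : B i j = B k l := by
  have hz := D.prim
  have z0 : ζ ≠ 0 := hz.ne_zero (by norm_num)
  have b1 : ∀ m : Fin 11, BB M (cj (u ^ m.1) B) := fun m => D.bb_cj hB (pow_mem D.cu _)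
  have b2 : ∀ m : Fin 11, BB M (cj w (cj (u ^ m.1) B)) := fun m => D.bb_cj (b1 m) D.cw
  have hh : ∀ a m : Fin 11, ∑ i : Fin 11, ∑ j : Fin 11,
      ζ ^ (2 * (i.1 + j.1) * a.1) * ζ ^ ((i.1 * i.1 + 10 * (j.1 * j.1)) * m.1) * B i j =
        if a = 0 then 0 else cj w (cj (u ^ m.1) B) 1 1 := fun a m => by
    have hu : (u ^ m.1).1 = diagonal fun i : Fin 11 => ζ ^ (i.1 * i.1 * m.1) := by
      rw [Units.val_pow_eq_pow_val, D.hu, diagonal_pow]
      congr 1; ext i; simp [pow_mul]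
    have k1 : cj w (cj (u ^ m.1) B) a a = if a = 0 then 0 else cj w (cj (u ^ m.1) B) 1 1 := by
      split_ifs with a0
      · rw [a0, D.row (b2 m)]
      · rcases D.ee (D.bb_ee (b2 m)) with c | c
        · exact (c a a0).trans (c 1 (by decide)).symm
        · exact (c a a0).trans (c 1 (by decide)).symm
    rw [← k1, D.cj_w (b1 m), mul_apply, Finset.sum_comm]
    refine Finset.sum_congr rfl fun j _ => ?_
    rw [mul_apply, Finset.sum_mul]
    refine Finset.sum_congr rfl fun i _ => ?_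
    rw [cj_diag hu]
    simp only [W11, of_apply]
    have k2 : ζ ^ (2 * (i.1 + j.1) * a.1) = ζ ^ (2 * a.1 * i.1 % 11) * ζ ^ (2 * j.1 * a.1 % 11) := by
      rw [← pow_add]
      exact z_eq hz (by rw [← Nat.add_mod]; congr 1; ring)
    have k3 : ζ ^ ((i.1 * i.1 + 10 * (j.1 * j.1)) * m.1) = ζ ^ (i.1 * i.1 * m.1) / ζ ^ (j.1 * j.1 * m.1) := by
      rw [eq_div_iff (pow_ne_zero _ z0), ← pow_add]
      exact z_eq hz (by
        rw [show (i.1 * i.1 + 10 * (j.1 * j.1)) * m.1 + j.1 * j.1 * m.1 =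
          i.1 * i.1 * m.1 + 11 * (j.1 * j.1 * m.1) by ring, Nat.add_mul_mod_self_left])
    rw [k2, k3]
    ring
  have k4 : (121 : F) ≠ 0 := by
    rw [show (121 : F) = 11 * 11 by norm_num]
    exact mul_ne_zero (el_ne hz) (el_ne hz)
  refine mul_left_cancel₀ k4 ?_
  rw [four_aux hz hh h1, four_aux hz hh h2]
  have dd : ∀ i j k l : Fin 11, i * i + l * l = k * k + j * j →
      (10 * (i.1 * i.1 + 10 * (j.1 * j.1))) % 11 = (10 * (k.1 * k.1 + 10 * (l.1 * l.1))) % 11 := by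
    decide +kernel
  refine congrArg _ (Finset.sum_congr rfl fun m _ => ?_)
  rw [z_eq hz (n := 10 * (k.1 * k.1 + 10 * (l.1 * l.1)) * m.1) (by
    rw [Nat.mul_mod, dd i j k l e, ← Nat.mul_mod])]

/-- For `j ≠ ±i`, `i² - j²` is `k² - 0` or `0 - l²`, so `B i j = 0` (`row`, `col`); `bb_ee`, `ee`. -/
theorem bb_eq (hB : BB M B) : B = 0 ∨ B = ta F := by
  have dd : ∀ i j : Fin 11, j ≠ i → j ≠ rn i → i + j ≠ 0 ∧ ∃ k : Fin 11,
      (k + 0 ≠ 0 ∧ i * i + 0 * 0 = k * k + j * j) ∨ (0 + k ≠ 0 ∧ i * i + k * k = 0 * 0 + j * j) := by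
    decide +kernel
  have z : ∀ i j : Fin 11, j ≠ i → j ≠ rn i → B i j = 0 := fun i j h1 h2 => by
    obtain ⟨h3, k, ⟨h4, h5⟩ | ⟨h4, h5⟩⟩ := dd i j h1 h2
    · rw [D.bb_four hB h3 h4 h5, D.col hB]
    · rw [D.bb_four hB h3 h4 h5, D.row hB]
  have nn : ∀ i : Fin 11, i ≠ 0 → rn i ≠ i := by decide
  refine (D.ee (D.bb_ee hB)).imp (fun c => ?_) fun c => ?_
  · ext i j
    by_cases i0 : i = 0
    · rw [i0, D.row hB, Matrix.zero_apply]
    by_cases h1 : j = i
    · exact h1 ▸ c i i0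
    by_cases h2 : j = rn i
    · rw [h2, hB.r]; exact c i i0
    exact z i j h1 h2
  · ext i j
    rw [ta_apply]
    by_cases i0 : i = 0
    · rw [i0, D.row hB, show rn 0 = 0 from rfl]
      split_ifs
      · linear_combination -D.two
      · simp
    by_cases h1 : j = i
    · rw [h1, if_pos rfl, if_neg (nn i i0), add_zero]; exact c i i0
    by_cases h2 : j = rn i
    · rw [h2, hB.r, if_neg (nn i i0).symm, if_pos rfl, zero_add]; exact c i i0
    rw [z i j h1 h2, if_neg (Ne.symm h1), if_neg (Ne.symm h2), add_zero]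

/-- `sum_pair`, `D.sy` -/
theorem mu_mul {g k : G11} (hg : g * t = t * g) (hk : k * t = t * k) : (g * k).1 0 0 = g.1 0 0 * k.1 0 0 := by
  rw [Units.val_mul, mul_apply]
  exact sum_pair D.two (f := fun i => g.1 0 i * k.1 i 0) fun i =>
    congrArg₂ _ (D.sy hg 0 i) (D.sy hk i 0)

variable {α : Ct M t →* GL (Fin 5) F} {β : Ct M t →* GL (Fin 6) F} (S : Sp M t α β)
include S

/-- `S.ha`, `D.sy`, `mul_ta` -/
theorem ker_ta {k : Ct M t} (e : α k = 1) : k.1.1 * ta F = ta F := by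
  conv_rhs => rw [← Matrix.one_mul (ta F)]
  refine ta_ext D.two (D.sy (Ct.comm k)) (fun i j => by simp [one_apply]) fun a b => ?_
  rw [← S.ha, e, one_o5, Units.val_one]

/-- `n = k + 1` has `n ta = 0 = ta n`, `n 0 0 = 0`, so `k² = 1 + vecMulVec (column 0) (row 0)` (`sum_pair`) and one
of them vanishes (`nt`); entries `(0,0)`, `(0,j)` of `sim` give `n 0 j = σ (n j 0)`.  `exists_ta`, `bb_eq`. -/
theorem ker_one {k : Ct M t} (e : α k = 1) (h0 : k.1.1 0 0 = 1) : k.1 = 1 ∨ k.1 = t := by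
  have c2 := D.two
  have e1 := D.ker_ta S e
  have e2 : ta F * k.1.1 = ta F := (D.cta (Ct.comm k)).symm.trans e1
  obtain ⟨n, hn⟩ : ∃ n : M11, k.1.1 = 1 + n := ⟨k.1.1 - 1, by abel⟩
  rw [hn, add_mul, one_mul, add_eq_left] at e1
  rw [hn, mul_add, mul_one, add_eq_left] at e2
  have l : ∀ i j, n (rn i) j = n i j := fun i j => by
    have := congrFun (congrFun e2 i) j
    rw [ta_mul, Matrix.zero_apply] at this
    linear_combination this - n i j * c2
  have r : ∀ i j, n i (rn j) = n i j := fun i j => by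
    have := congrFun (congrFun e1 i) j
    rw [mul_ta, Matrix.zero_apply] at this
    linear_combination this - n i j * c2
  have n0 : n 0 0 = 0 := by
    rw [hn, Matrix.add_apply, one_apply_eq, add_eq_left] at h0; exact h0
  have sq : (k.1 * k.1).1 = 1 + vecMulVec (fun i => n i 0) (n 0) := by
    rw [Units.val_mul, hn, add_mul, one_mul, mul_add, mul_one]
    ext i j
    rw [Matrix.add_apply, Matrix.add_apply, Matrix.add_apply, Matrix.add_apply, mul_apply, vecMulVec_apply,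
      sum_pair c2 (f := fun a => n i a * n a j) fun a => by rw [l, r]]
    linear_combination n i j * c2
  have k0 : ∀ i, k.1.1 (rn i) 0 = k.1.1 i 0 := fun i => D.sy (Ct.comm k) i 0
  obtain ⟨c, hc⟩ := D.sim k.1 k.2.1
  have rc : ∀ j, n 0 j = σ (n j 0) := fun j => by
    by_cases j0 : j = 0
    · rw [j0, n0, map_zero]
    have := congrFun (congrFun hc 0) j
    rw [Matrix.smul_apply, one_apply_ne (Ne.symm j0), smul_zero] at this
    nth_rewrite 2 [hn] at this
    rw [mul_add, mul_one, Matrix.add_apply, mul_apply, sum_pair c2 (fun a => by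
      rw [transpose_apply, transpose_apply, map_apply, map_apply, k0, l])] at this
    simp only [transpose_apply, map_apply, h0, map_one, one_mul] at this
    rw [hn, Matrix.add_apply, one_apply_ne j0, zero_add] at this
    linear_combination this - σ (n j 0) * c2
  have hv := D.nt _ (mul_mem k.2.1 k.2.1) _ _ (by
    rw [dotProduct, sum_pair c2 (f := fun a => n 0 a * n a 0) fun a => by rw [l, r], n0, mul_zero]) sq
  have cz : ∀ i, n i 0 = 0 := fun i => by
    rcases hv with v | v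
    · exact congrFun v i
    · exact (map_eq_zero σ).1 ((rc i).symm.trans (congrFun v i))
  have rz : ∀ j, n 0 j = 0 := fun j => by rw [rc, cz, map_zero]
  refine (D.bb_eq ⟨exists_ta l r rz cz, k.1, k.2.1, hn⟩).imp (fun z => Units.ext ?_) fun z => Units.ext ?_
  · rw [hn, z, add_zero, Units.val_one]
  · rw [hn, z, D.te]

/-- `g k g⁻¹ k⁻¹ ∈ {1, t}` (`ker_one`, `mu_mul`), so `r = k²` commutes with `u` and `w`.  Entry `(1, 0)` of
`r w = w r`: `r 1 1 + r 1 (-1) = 1` (`ker_ta`, `D.zu`) is `r 0 0 = (k 0 0)²`. -/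
theorem ker : KER α := by
  intro k e
  have c2 := D.two
  have iv : ∀ g : Ct M t, g.1.1 0 0 * (g⁻¹).1.1 0 0 = 1 := fun g => by
    rw [← D.mu_mul (Ct.comm g) (Ct.comm g⁻¹), coe_inv, mul_inv_cancel, Units.val_one, one_apply_eq]
  have cm : ∀ g : Ct M t, k.1 * k.1 * g.1 = g.1 * (k.1 * k.1) := fun g => by
    have h1 := D.ker_one S (k := g * k * g⁻¹ * k⁻¹) (by simp [e]) (by
      rw [coe_mul, D.mu_mul (Ct.comm _) (Ct.comm _), coe_mul, D.mu_mul (Ct.comm _) (Ct.comm _), coe_mul,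
        D.mu_mul (Ct.comm _) (Ct.comm _)]
      linear_combination (k.1.1 0 0 * (k⁻¹).1.1 0 0) * iv g + iv k)
    simp only [coe_mul, coe_inv] at h1
    have h2 : g.1 * (k.1 * k.1) * g.1⁻¹ = k.1 * k.1 := by
      rw [show g.1 * (k.1 * k.1) * g.1⁻¹ = (g.1 * k.1 * g.1⁻¹ * k.1⁻¹) * k.1 *
        ((g.1 * k.1 * g.1⁻¹ * k.1⁻¹) * k.1) by group]
      rcases h1 with h1 | h1 <;> rw [h1]
      · simp
      · rw [mul_assoc, ← mul_assoc k.1, Ct.comm k, ← mul_assoc, ← mul_assoc, D.tt, one_mul]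
    rw [← h2, inv_mul_cancel_right, h2]
  have zu := fun i j => D.zu (cm ⟨u, D.cu⟩) (i := i) (j := j)
  have e1 := congrFun (congrFun (D.ker_ta S (k := k * k) (by rw [map_mul, e, one_mul])) 1) 1
  rw [mul_ta, ta_apply, if_pos rfl, if_neg (by decide), add_zero, coe_mul] at e1
  have e2 : (k.1 * k.1 * w).1 1 0 = (w * (k.1 * k.1)).1 1 0 := by rw [cm ⟨w, D.cw⟩]
  rw [Units.val_mul, Units.val_mul w, mul_apply, mul_apply,
    Finset.sum_eq_add (1 : Fin 11) (rn 1) (by decide) (fun l _ n => by rw [zu 1 l n.1 n.2, zero_mul]) (by simp)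
      (by simp),
    Finset.sum_eq_single (0 : Fin 11) (fun l _ n => by
      rw [zu l 0 (Ne.symm n) (by clear * - n; revert l; decide), mul_zero]) (by simp),
    D.mu_mul (Ct.comm k) (Ct.comm k)] at e2
  simp only [D.hw, D.g1, W11, Matrix.smul_apply, of_apply, Fin.val_zero, mul_zero, Nat.zero_mod, pow_zero,
    smul_eq_mul, mul_one, one_mul] at e2
  refine D.ker_one S e ?_
  have : (k.1.1 0 0 - 1) ^ 2 = 0 := by linear_combination e1 - e2 + (1 - k.1.1 0 0) * c2
  exact sub_eq_zero.1 (pow_eq_zero_iff (by norm_num) |>.1 this)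

end OvE

end Cfsg.Lib.C6W
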