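import Cfsg.Agent.Lib.C6W.EvK

/-! Squares of lifts of involutions, `q = 32`. -/

set_option autoImplicit false
set_option linter.unusedSectionVars false

namespace Cfsg.Lib.C6W

open scoped MatrixGroups
open Subgroup Matrix MulAction Cfsg.Geo Cfsg.Lib.C6 Cfsg.Lib.C6E
open Cfsg.Lib.Asch hiding tr

variable {F : Type*} [Field F] {σ : F →+* F} {ζ γ : F}

local notation "G11" => GL (Fin 11) F
local notation "M11" => Matrix (Fin 11) (Fin 11) F

/-- a lift of a vector of `V / C_V(t)` -/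
def lf (v : Fin 5 → F) : Fin 11 → F := ![0, v 0, v 1, v 2, v 3, v 4, 0, 0, 0, 0, 0]

theorem ta_vec (z : Fin 11 → F) (i : Fin 11) : (ta F *ᵥ z) i = z i + z (rn i) := by
  simp [mulVec, dotProduct, ta_apply, add_mul, Finset.sum_add_distrib]

theorem lf_zero (v : Fin 5 → F) : lf v 0 = 0 := rfl

theorem lf_o5 (v : Fin 5 → F) (a : Fin 5) : lf v (o5 a) = v a := by fin_cases a <;> rfl

theorem lf_rn (v : Fin 5 → F) (a : Fin 5) : lf v (rn (o5 a)) = 0 := by fin_cases a <;> rfl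

theorem mul_lf (g : M11) (v : Fin 5 → F) (i : Fin 11) : (g *ᵥ lf v) i = ∑ a, g i (o5 a) * v a := by
  simp [mulVec, dotProduct, sum_o5, lf_zero, lf_o5, lf_rn]

theorem evq_self (c2 : (2 : F) = 0) {ι : Type*} (z : ι → F) : z + z = 0 :=
  funext fun i => by simp [← two_mul, c2]

theorem evq_sym (c2 : (2 : F) = 0) {z : Fin 11 → F} (h : ta F *ᵥ z = 0) (i : Fin 11) : z (rn i) = z i := by
  have := congrFun h i
  rw [ta_vec, Pi.zero_apply] at this
  linear_combination this - z i * c2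

/-- With `f = Unitary.stdForm σ _`, `d = g z + z` (symmetric, `ta_mul`):
`f (g z) (g g z + z) = f (g z) (g d + d) = f z d + f (g z) d = f d d = σ (d 0) * d 0` (`sum_pair`). -/
theorem quad (c2 : (2 : F) = 0) {g : M11} (hg : (g.map σ)ᵀ * g = 1) {z : Fin 11 → F}
    (hz : ta F *ᵥ (g *ᵥ z + z) = 0) :
    Unitary.stdForm σ _ (g *ᵥ z) (g *ᵥ g *ᵥ z + z) = σ ((g *ᵥ z + z) 0) * (g *ᵥ z + z) 0 := by
  have e : g *ᵥ g *ᵥ z + z = g *ᵥ (g *ᵥ z + z) + (g *ᵥ z + z) := by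
    rw [mulVec_add, add_assoc, ← add_assoc (g *ᵥ z), evq_self c2, zero_add]
  rw [e, map_add, (Unitary.stdForm_mulVec_iff g).2 hg, ← LinearMap.add_apply, ← map_add, add_comm z,
    Unitary.stdForm_apply, sum_pair c2 fun i => by rw [evq_sym c2 hz]]

variable {x y u w h t : GL (Fin 11) F} {M : Subgroup (GL (Fin 11) F)}

namespace OvE

variable (D : OvE σ ζ γ x y u w h t M) {α : Ct M t →* GL (Fin 5) F} {β : Ct M t →* GL (Fin 6) F}
  (S : Sp M t α β) {c d : Ct M t} {v : Fin 5 → F}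
include D S

/-- `cta`, `S.ha`, `D.sy` -/
theorem ta_lf (c : Ct M t) (v : Fin 5 → F) : ta F *ᵥ c.1.1 *ᵥ lf v = ta F *ᵥ lf ((α c).1 *ᵥ v) := by
  have k : ∀ a, (c.1.1 *ᵥ lf v) (o5 a) + (c.1.1 *ᵥ lf v) (rn (o5 a)) = ((α c).1 *ᵥ v) a := fun a => by
    rw [mul_lf, mul_lf, ← Finset.sum_add_distrib, mulVec, dotProduct]
    refine Finset.sum_congr rfl fun b _ => ?_
    rw [S.ha, ← D.sy (Ct.comm c) (o5 a) (rn _), rr]
    linear_combination c.1.1 (rn (o5 a)) (o5 b) * v b * D.two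
  ext i
  rw [ta_vec, ta_vec]
  obtain rfl | ⟨b, rfl | rfl⟩ := (by decide : ∀ j : Fin 11, j = 0 ∨ ∃ b, j = o5 b ∨ j = rn (o5 b)) i
  · rw [show rn 0 = 0 from rfl, lf_zero, ← two_mul, D.two, zero_mul, add_zero]
  · rw [k, lf_o5, lf_rn, add_zero]
  · rw [rr, add_comm, k, lf_o5, lf_rn, zero_add]

theorem evq_fix (c : Ct M t) (hv : (α c).1 *ᵥ v = v) : ta F *ᵥ (c.1.1 *ᵥ lf v + lf v) = 0 := by
  rw [mulVec_add, D.ta_lf S, hv, evq_self D.two]

/-- `ker`: `c² ∈ {1, t}`, `c⁴ = 1`; the multiplier and `c 0 0` (`mu_mul`) are fourth roots of unity. -/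
theorem four (e : α c * α c = 1) :
    (c.1 * c.1 = 1 ∨ c.1 * c.1 = t) ∧ (c.1.1.map σ)ᵀ * c.1.1 = 1 ∧ c.1.1 0 0 = 1 := by
  have c2 := D.two
  have k : c.1 * c.1 = 1 ∨ c.1 * c.1 = t := D.ker S (c * c) (by rw [map_mul, e])
  have k4 : c.1.1 * c.1.1 * (c.1.1 * c.1.1) = 1 := by
    rw [← Units.val_mul, ← Units.val_mul]
    rcases k with k | k
    · rw [k, mul_one, Units.val_one]
    · rw [k, D.tt, Units.val_one]
  have sq : ∀ {a : M11} {m : F}, (a.map σ)ᵀ * a = m • 1 → ((a * a).map σ)ᵀ * (a * a) = (m * m) • 1 := fun {a m} h => by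
    rw [Matrix.map_mul, transpose_mul, Matrix.mul_assoc, ← Matrix.mul_assoc _ a, h, Matrix.smul_mul, Matrix.one_mul,
      Matrix.mul_smul, h, smul_smul]
  obtain ⟨m, hm⟩ := D.sim _ c.2.1
  have m4 := congrFun (congrFun (sq (sq hm)) 0) 0
  rw [k4] at m4
  simp only [Matrix.map_one _ (map_zero σ) (map_one σ), transpose_one, Matrix.mul_one, one_apply_eq,
    Matrix.smul_apply, smul_eq_mul, mul_one] at m4
  have m1 : m = 1 := sub_eq_zero.1 (pow_eq_zero_iff (n := 4) (by norm_num) |>.1 (by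
    linear_combination -m4 + (-2 * m ^ 3 + 3 * m ^ 2 - 2 * m + 1) * c2))
  have h0 := D.mu_mul (Ct.comm c) (Ct.comm c)
  have h1 : (c.1 * c.1).1 0 0 = 1 := by
    rcases k with k | k
    · rw [k]; simp
    · rw [k, D.te, Matrix.add_apply, ta_apply]
      simp only [one_apply_eq, show rn 0 = 0 from rfl, if_true]
      linear_combination c2
  refine ⟨k, by rw [hm, m1, one_smul], sub_eq_zero.1 (pow_eq_zero_iff (n := 2) (by norm_num) |>.1 ?_)⟩
  linear_combination h1 - h0 + (1 - c.1.1 0 0) * c2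

theorem evq_sq (e : c.1 * c.1 = 1 ∨ c.1 * c.1 = t) : α c * α c = 1 := by
  rw [← map_mul]
  rcases e with e | e
  · rw [show c * c = 1 from Subtype.ext e, map_one]
  · rw [show c * c = ⟨t, D.ct⟩ from Subtype.ext e, D.a_t S]

/-- `quad` for `z = lf v` -/
theorem del_one (e : c.1 * c.1 = 1) (hv : (α c).1 *ᵥ v = v) : (c.1.1 *ᵥ lf v) 0 = 0 := by
  have := quad D.two (D.four S (D.evq_sq S (.inl e))).2.1 (D.evq_fix S c hv)
  rw [mulVec_mulVec, ← Units.val_mul, e, Units.val_one, one_mulVec, evq_self D.two, map_zero] at this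
  simpa [lf_zero] using this

/-- `quad`; `f (c z) (ta z) = f z (ta z) + f d (ta z)` and `f d (ta z) = 0` for symmetric `d` -/
theorem del_t (e : c.1 * c.1 = t) (hv : (α c).1 *ᵥ v = v) :
    σ ((c.1.1 *ᵥ lf v) 0) * (c.1.1 *ᵥ lf v) 0 = Unitary.stdForm σ _ v v := by
  have k := D.evq_fix S c hv
  have := quad D.two (D.four S (D.evq_sq S (.inr e))).2.1 k
  rw [mulVec_mulVec, ← Units.val_mul, e, D.te, add_mulVec, one_mulVec, add_right_comm, evq_self D.two, zero_add,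
    Pi.add_apply, lf_zero, add_zero] at this
  have e1 : Unitary.stdForm σ _ (c.1.1 *ᵥ lf v + lf v) (ta F *ᵥ lf v) = 0 := by
    rw [Unitary.stdForm_apply, sum_pair D.two fun i => by rw [evq_sym D.two k, ta_vec, ta_vec, rr, add_comm (lf v i)],
      ta_vec, show rn 0 = 0 from rfl, lf_zero, add_zero, mul_zero]
  have e2 : Unitary.stdForm σ _ (lf v) (ta F *ᵥ lf v) = Unitary.stdForm σ _ v v := by
    simp [Unitary.stdForm_apply, sum_o5, ta_vec, lf_zero, lf_o5, lf_rn]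
  rw [map_add, LinearMap.add_apply, this, e2] at e1
  linear_combination e1 - Unitary.stdForm σ _ v v * D.two

/-- `d z = z + δ` with `δ` symmetric, `(c δ) 0 = c 0 0 * δ 0` (`sum_pair`) -/
theorem del_mul (h0 : c.1.1 0 0 = 1) (hv : (α d).1 *ᵥ v = v) :
    ((c * d).1.1 *ᵥ lf v) 0 = (c.1.1 *ᵥ lf v) 0 + (d.1.1 *ᵥ lf v) 0 := by
  have e : (c.1.1 *ᵥ (d.1.1 *ᵥ lf v + lf v)) 0 = (d.1.1 *ᵥ lf v) 0 := by
    rw [mulVec, dotProduct, sum_pair D.two fun i => by
      rw [evq_sym D.two (D.evq_fix S d hv), ← D.sy (Ct.comm c) 0 i]; rfl, h0, one_mul, Pi.add_apply, lf_zero, add_zero]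
  rw [mulVec_add, Pi.add_apply, mulVec_mulVec] at e
  rw [coe_mul, Units.val_mul]
  linear_combination e - (c.1.1 *ᵥ lf v) 0 * D.two

/-- Otherwise `c² = t`; `IsHerm.exists_nonisotropic_perp_of_finrank` for the span of `σ ∘ φ` and
`fun b => σ (c 0 (o5 b))` gives a non-isotropic `v` with `α c v = v`, `(c (lf v)) 0 = 0`; `del_t`. -/
theorem tv_lift (e : α c * α c = 1) {a φ : Fin 5 → F} (e1 : (α c).1 = 1 + vecMulVec a φ) : c.1 * c.1 = 1 := by
  refine (D.four S e).1.resolve_right fun k => ?_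
  have H := D.bar.isHerm (ι := Fin 5)
  obtain ⟨v, hv, n⟩ := H.exists_nonisotropic_perp_of_finrank
    (W := Submodule.span F (Set.range ![σ ∘ φ, fun b => σ (c.1.1 0 (o5 b))])) (by
      have := finrank_range_le_card (R := F) ![σ ∘ φ, fun b => σ (c.1.1 0 (o5 b))]
      rw [Set.finrank, Fintype.card_fin] at this
      rw [Module.finrank_fin_fun]
      omega)
  rw [Unitary.mem_perp_span] at hv
  have h1 := hv _ ⟨0, rfl⟩
  have h2 := hv _ ⟨1, rfl⟩
  simp only [Unitary.stdForm_apply, cons_val_zero, cons_val_one, Function.comp, H.invol] at h1 h2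
  have := D.del_t S k (v := v) (by
    rw [e1, add_mulVec, one_mulVec, vecMulVec_mulVec, show φ ⬝ᵥ v = 0 from h1]; simp)
  rw [mul_lf, h2, mul_zero] at this
  exact n this.symm

/-- `∑ b, tau (2ab) = 1` -/
theorem w_one : (α ⟨w, D.cw⟩).1 *ᵥ 1 = 1 := by
  ext a
  have := sum_z D.prim (c := 2 * (o5 a).1) (by revert a; decide)
  rw [Finset.sum_congr rfl fun i _ => pow_eq_pow_mod _ D.prim.pow_eq_one, sum_o5] at this
  simp only [mulVec, dotProduct, S.ha, D.hw, D.g1, one_smul, W11, of_apply, Pi.one_apply, mul_one,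
    Finset.sum_sub_distrib]
  rw [Finset.sum_add_distrib] at this
  simp only [Fin.val_zero, mul_zero, Nat.zero_mod, pow_zero] at this
  linear_combination this - (1 + ∑ b, ζ ^ (2 * (o5 a).1 * (rn (o5 b)).1 % 11)) * D.two

/-- `v = 1` has norm `5 = 1`; `(c d)² = t` since `c d ∈ {w, w t}` (`ker`); `del_one`, `del_mul`, `del_t`. -/
theorem no_split (e1 : c.1 * c.1 = 1) (e2 : d.1 * d.1 = 1) (h1 : (α c).1 *ᵥ 1 = 1) (h2 : (α d).1 *ᵥ 1 = 1) :
    α c * α d ≠ α ⟨w, D.cw⟩ := fun e => by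
  have k : (c * d).1 * (c * d).1 = t := by
    rcases D.ker S ((⟨w, D.cw⟩ : Ct M t)⁻¹ * (c * d)) (by rw [map_mul, map_mul, e, map_inv, inv_mul_cancel]) with k | k
    · rw [← inv_mul_eq_one.1 k, ← sq, D.ww]
    · rw [inv_mul_eq_iff_eq_mul.1 k]
      simp only [mul_assoc]
      rw [← mul_assoc t, D.tw, mul_assoc, D.tt, mul_one, ← sq, D.ww]
  have := D.del_t S k (v := 1) (by rw [map_mul, Units.val_mul, ← mulVec_mulVec, h2, h1])
  rw [D.del_mul S (D.four S (D.evq_sq S (.inl e1))).2.2 h2, D.del_one S e1 h1, D.del_one S e2 h2,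
    Unitary.stdForm_apply] at this
  simp only [add_zero, mul_zero, Pi.one_apply, map_one, mul_one, Finset.sum_const, Finset.card_univ, Fintype.card_fin,
    nsmul_eq_mul, Nat.cast_ofNat] at this
  exact one_ne_zero (α := F) (by linear_combination -this - 2 * D.two)

end OvE

end Cfsg.Lib.C6W
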